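import Cfsg.Agent.Classical.Cov1
import Cfsg.Agent.Classical.Uc2

/-! Normal 2-coverings, part 2: models of `Sp` and `SU` and Dye's theorem (`covZ_sp_two`). -/

set_option autoImplicit false

namespace Cfsg.Agent.Classical.Cov

open Module Polynomial Matrix Cfsg.Agent.Geom Cfsg.Agent.Geom.Formed Cfsg.Agent.Elu QuadraticMap

variable {F : Type*} [Field F] {V : Type*} [AddCommGroup V] [Module F V] [FiniteDimensional F V]

theorem model_sp {B : LinearMap.BilinForm F V} {hA : B.IsAlt} (h : (ofAlt B hA).Nondeg) {m : ℕ}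
    (hm : finrank F V = 2 * m) : ∃ j : symplecticGroup (Fin m) F →* (V ≃ₗ[F] V),
      Model j (1 : (V ≃ₗ[F] V) →* Fˣ) (ofAlt B hA).isom := by
  obtain ⟨e, he⟩ := exists_isIso_sympFormed h hm
  refine ⟨(Subgroup.subtype _).comp ((spEquiv m F).trans he.symm.isomCongr).toMonoidHom, fun g => ?_,
    fun z hz => ?_⟩
  · refine ⟨fun ⟨y, hy⟩ => ⟨hy ▸ Subtype.property _, rfl⟩, fun hg => ?_⟩
    obtain ⟨y, hy⟩ := ((spEquiv m F).trans he.symm.isomCongr).surjective ⟨g, hg.1⟩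
    exact ⟨y, congrArg Subtype.val hy⟩
  · rcases mem_center_sp_iff.1 hz with h | h
    · exact ⟨1, fun v => by simp [h]⟩
    · exact ⟨-1, fun v => by simp [h, neg_mulVec]⟩

theorem model_SU [Fintype F] {q n : ℕ} (hF : Fintype.card F = q ^ 2) {Φ : Formed (frobq hF) V}
    (h : Φ.Nondeg) (hε : Φ.ε = 1) (hn : finrank F V = n) (h2 : 2 ≤ n) :
    ∃ j : SU n F q →* (V ≃ₗ[F] V), Model j LinearEquiv.det Φ.isom := by
  have := Fact.mk hF
  obtain ⟨e, he⟩ := exists_isIso_hermFormed hF h hε hn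
  let φ := (guEquiv hF n).trans he.symm.isomCongr
  have hd : ∀ g, LinearEquiv.det (φ g).1 = guDet n F q g := fun g =>
    (det_autCongr _ _).trans (linearEquiv_det_glEquiv _)
  refine ⟨(Subgroup.subtype _).comp (φ.toMonoidHom.comp (suToGU n F q)), fun g => ?_, fun z hz => ?_⟩
  · refine ⟨fun ⟨y, hy⟩ => ⟨hy ▸ Subtype.property _, ?_⟩, fun hg => ?_⟩
    · rw [← hy]
      exact (hd _).trans (MonoidHom.mem_ker.1 (range_suToGU.le ⟨y, rfl⟩))
    · obtain ⟨y, hy⟩ := φ.surjective ⟨g, hg.1⟩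
      obtain ⟨z, rfl⟩ := range_suToGU.ge (show y ∈ (guDet n F q).ker by
        rw [MonoidHom.mem_ker, ← hd, hy]; exact hg.2)
      exact ⟨z, congrArg Subtype.val hy⟩
  · obtain ⟨c, hc⟩ := (mem_center_SU_iff h2).1 hz
    refine ⟨c, fun v => ?_⟩
    change e.symm (z.1.1 *ᵥ e v) = _
    simp [hc, smul_mulVec]

section Two
variable [Finite F] [CharP F 2] {m : ℕ}

omit [CharP F 2] in
theorem good_quad (hm : 2 ≤ m) {Q : QuadraticForm F (Fin m ⊕ Fin m → F)}
    (hQ : ∀ u v, polar Q u v = sympForm m F u v) :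
    Good (1 : _ →* Fˣ) (sympFormed m F).isom (ofQuad Q).isom := by
  have hn := sympFormed_nondeg m F
  have hn' : (ofQuad Q).Nondeg := fun x hx => hn x fun y => by rw [sympFormed_B, ← hQ]; exact hx y
  obtain ⟨k, rfl⟩ : ∃ k, m = k + 1 := ⟨m - 1, by omega⟩
  obtain ⟨v, hv, hv0⟩ : ∃ v, Q v = 0 ∧ v ≠ 0 := by
    obtain ⟨U, hU, h⟩ : ∃ U, (ofQuad Q).TotSing U ∧ 0 < finrank F U := by
      rcases wittIndex_even hn' (m := k) (by simp; omega) with ⟨⟨U, hU, h⟩, -⟩ | ⟨⟨U, hU, h⟩, -⟩ <;>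
        exact ⟨U, hU, by omega⟩
    obtain ⟨⟨v, hv⟩, h0⟩ := finrank_pos_iff_exists_ne_zero.1 h
    exact ⟨v, hU.2 v hv, fun e => h0 (Subtype.ext e)⟩
  obtain ⟨w, hw⟩ := hn.exists_eq_one hv0
  refine ⟨fun g hg ⟨c, hc⟩ => mem_isom_ofQuad.2 fun x => ?_, fun _ _ => ⟨1, one_mem _, one_mem _, rfl⟩, ?_⟩
  · have := hg.1 v w
    rw [hc, hc, B_smul_left, B_smul_right, hw, mul_one] at this
    rw [hc, QuadraticMap.map_smul, smul_eq_mul, show c * c = 1 from this, one_mul]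
  · have hc : RingHom.id F 1 + (sympFormed (k + 1) F).ε * 1 + RingHom.id F 1 * 1 * (sympFormed (k + 1) F).B v v = 0 := by
      simp [sympFormed, sympForm_self, ofAlt]
    refine ⟨qrefl hn v 1 hc, qrefl_mem hn v 1 hc (by simp [sympFormed, ofAlt]), fun h => ?_⟩
    have := mem_isom_ofQuad.1 h w
    rw [qrefl_apply, hw, one_mul, one_smul, quad_add, hv, polar_comm, hQ, ← sympFormed_B, hw] at this
    simp at this

theorem exists_fixed_quad (g : (sympFormed m F).isom) : ∃ Q : QuadraticForm F (Fin m ⊕ Fin m → F),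
    (∀ u v, polar Q u v = sympForm m F u v) ∧ g.1 ∈ (ofQuad Q).isom := by
  have hn := sympFormed_nondeg m F
  obtain ⟨φ, hφ⟩ := exists_sp_defect g
  obtain ⟨w, rfl⟩ := hn.exists_eq_B φ
  have hw : w ∈ mov g.1⁻¹ := by
    rw [mov_inv, ← perp_fixS hn g.2, mem_perp']
    intro u hu
    have := hφ u
    rwa [mem_fixS.1 hu, left_eq_add, pow_eq_zero_iff two_ne_zero] at this
  obtain ⟨u, rfl⟩ := mem_mov.1 hw
  refine ⟨quadPlus F m + linMulLin ((sympFormed m F).B u) ((sympFormed m F).B u), fun x y => ?_,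
    mem_isom_ofQuad.2 fun x => ?_⟩
  · rw [← polar_quadPlus_two]
    simp only [polar, _root_.add_apply, linMulLin_apply, map_add]
    linear_combination ((sympFormed m F).B u x * (sympFormed m F).B u y) * CharTwo.two_eq_zero (R := F)
  · have h1 : (sympFormed m F).B u (g.1 x) = (sympFormed m F).B (g.1⁻¹ u) x := by
      rw [← g.2.1 (g.1⁻¹ u) x]; simp
    simp only [_root_.add_apply, linMulLin_apply, hφ, h1, B_sub_left]
    linear_combination ((sympFormed m F).B (g.1⁻¹ u) x ^ 2 -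
      (sympFormed m F).B u x * (sympFormed m F).B (g.1⁻¹ u) x) * CharTwo.two_eq_zero (R := F)

theorem covZ_sp_two (hm : 2 ≤ m) : CovZ (symplecticGroup (Fin m) F) := by
  have hn := sympFormed_nondeg m F
  obtain ⟨j, hj⟩ := model_sp (hA := sympB_isAlt m F) hn (m := m) (by simp; omega)
  have key : ∀ k, ∃ Q₀ : QuadraticForm F (Fin m ⊕ Fin m → F), (∀ u v, polar Q₀ u v = sympForm m F u v) ∧
      ∀ Q : QuadraticForm F (Fin m ⊕ Fin m → F), (∀ u v, polar Q u v = sympForm m F u v) →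
        (ofQuad Q).WittIndex k → (ofQuad Q₀).WittIndex k := fun k => by
    by_cases h : ∃ Q : QuadraticForm F (Fin m ⊕ Fin m → F), (∀ u v, polar Q u v = sympForm m F u v) ∧
        (ofQuad Q).WittIndex k
    · exact h.imp fun Q h => ⟨h.1, fun _ _ _ => h.2⟩
    · exact ⟨quadPlus F m, polar_quadPlus_two, fun Q h1 h2 => (h ⟨Q, h1, h2⟩).elim⟩
  choose Q hQ hQ' using key
  have hn' : ∀ {Q : QuadraticForm F (Fin m ⊕ Fin m → F)}, (∀ u v, polar Q u v = sympForm m F u v) →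
      (ofQuad Q).Nondeg := fun hQ x hx => hn x fun y => by rw [sympFormed_B, ← hQ]; exact hx y
  obtain ⟨k, rfl⟩ : ∃ k, m = k + 1 := ⟨m - 1, by omega⟩
  refine covZ_lin hj (good_quad hm (hQ (k + 1))) (good_quad hm (hQ k)) fun g hg _ => ?_
  obtain ⟨P, hP, hP'⟩ := exists_fixed_quad ⟨g, hg⟩
  have key : ∀ i, (ofQuad P).WittIndex i → ∃ x ∈ (sympFormed (k + 1) F).isom,
      x * g * x⁻¹ ∈ (ofQuad (Q i)).isom := fun i hi => by
    obtain ⟨e, he⟩ := exists_isIso_of_wittIndex (hn' hP) (hn' (hQ i)) rfl (by simp) hi (hQ' i P hP hi)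
    refine ⟨e, (mem_sympFormed_isom _ _).2 fun u v => ?_, (he.autCongr_mem_iff g).1 hP'⟩
    rw [← hQ i, ← hP]; exact he.1 u v
  rcases wittIndex_even (hn' hP) (m := k) (by simp; omega) with h | h
  · exact (key _ h).imp fun _ h => ⟨h.1, .inl h.2⟩
  · exact (key _ h).imp fun _ h => ⟨h.1, .inr h.2⟩

end Two

end Cfsg.Agent.Classical.Cov
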