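import Cfsg.Agent.Classical.Cov2
import Cfsg.Agent.Elu.Herm

/-! Normal 2-coverings, part 3: invariant subspaces of unitary elements, `SU₄(q)` and `SU₃(3^a)`. -/

set_option autoImplicit false

namespace Cfsg.Agent.Classical.Cov

open Module Polynomial Matrix Cfsg.Agent.Geom Cfsg.Agent.Geom.Formed Cfsg.Agent.Elu Cfsg.Agent.Classical.Eig

variable {F : Type*} [Field F] {V : Type*} [AddCommGroup V] [Module F V] [FiniteDimensional F V]

theorem exists_eigen_of_one {f : End F V} {W : Submodule F V} (hW : Inv f W) (h : finrank F W = 1) :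
    ∃ v ∈ W, v ≠ 0 ∧ (∃ c : F, f v = c • v) ∧ ∀ w ∈ W, ∃ c : F, w = c • v := by
  obtain ⟨v, hv, h⟩ := finrank_eq_one_iff'.1 h
  have h1 : ∀ w ∈ W, ∃ c : F, w = c • v := fun w hw =>
    (h ⟨w, hw⟩).imp fun c hc => (congrArg Subtype.val hc).symm
  exact ⟨v, v.2, fun e => hv (Subtype.ext e), h1 _ (hW _ v.2), h1⟩

theorem mp_eq_of_blk [Finite F] {z : Kb F × ℕ} {p : F[X]} (hz : 0 < z.2) (hp : Irreducible p) (hm : p.Monic)
    (h : blk z = p) : mp z.1 = p :=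
  eq_of_monic_of_associated (mp_monic _) hm ((mp_irr _).associated_of_dvd hp
    (h ▸ dvd_pow_self _ hz.ne'))

/-- `f` has a non-isotropic eigenvector. -/
def NE {σ : F →+* F} (Φ : Formed σ V) (f : End F V) : Prop := ∃ v, Φ.B v v ≠ 0 ∧ ∃ c : F, f v = c • v

section Gen
variable {σ : F →+* F} {Φ : Formed σ V} {f : End F V} {e e' : V} {l : F}

omit [FiniteDimensional F V] in
theorem B_ne_of_one {W : Submodule F V} (hW : Nd Φ W) {v : V} (hv : v ∈ W) (h0 : v ≠ 0)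
    (h : ∀ w ∈ W, ∃ c : F, w = c • v) : Φ.B v v ≠ 0 := fun e => h0 (nd_iff.1 hW v hv fun w hw => by
  obtain ⟨c, rfl⟩ := h w hw
  rw [B_smul_right, e, mul_zero])

theorem ne_of_one {W : Submodule F V} (hW : Inv f W) (hn : Nd Φ W) (h : finrank F W = 1) : NE Φ f := by
  obtain ⟨v, hv, h0, h1, h2⟩ := exists_eigen_of_one hW h
  exact ⟨v, B_ne_of_one hn hv h0 h2, h1⟩

omit [FiniteDimensional F V] in
theorem exists_step (hn : Φ.Nondeg) (h : Iso Φ f) (hτ : Φ.τ = 0) (hp : Φ.IsPair e e') (he : f e = l • e) :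
    ∃ g : End F (Φ.pairPerp e e'), Iso (Φ.restrict _) g ∧
      ∀ u : Φ.pairPerp e e', ∃ c : F, f u = g u + c • e := by
  have hl : σ l ≠ 0 := by
    rw [_root_.map_ne_zero]
    rintro rfl
    exact hp.left_ne_zero (h.injective hn (by simp [he]))
  have h1 : ∀ u ∈ Φ.pairPerp e e', Φ.B e (f u) = 0 := fun u hu => by
    have := h.1 e u
    rwa [he, B_smul_left, (Φ.mem_pairPerp.1 hu).1, mul_eq_zero_iff_left hl] at this
  let L : End F V := f - ((Φ.ε • Φ.B e') ∘ₗ f).smulRight e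
  have h2 : ∀ u ∈ Φ.pairPerp e e', L u ∈ Φ.pairPerp e e' := fun u hu => by
    simpa [h1 u hu, L] using hp.sub_mem_pairPerp (f u)
  refine ⟨L.restrict h2, ⟨fun x y => ?_, fun x => ?_⟩, fun u => ⟨Φ.ε * Φ.B e' (f u), by simp [L]⟩⟩
  · change Φ.B (L x) (L y) = Φ.B x y
    simp [L, h.1, h1, Φ.B_eq_zero_symm (h1 _ x.2), hp.1.2]
  · change Φ.Q (L x) = Φ.Q x
    simp [L, Q_sub, hτ, Φ.Q_smul, hp.1.1, h.2]

omit [FiniteDimensional F V] in
theorem eq_of_not_ne (hp : Φ.IsPair e e') (he : f e = l • e) (h : ¬ NE Φ f) {u : V}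
    (hu : u ∈ Φ.pairPerp e e') (h0 : Φ.B u u ≠ 0) {m c : F} (hf : f u = m • u + c • e) : m = l := by
  by_contra hne
  have h1 := (Φ.mem_pairPerp.1 hu).1
  refine h ⟨u + (c / (m - l)) • e, by simpa [h1, Φ.B_eq_zero_symm h1, hp.1.2] using h0, m, ?_⟩
  rw [map_add, map_smul, hf, he, smul_add, smul_smul, smul_smul, add_assoc, ← add_smul]
  congr 2
  field_simp [sub_ne_zero.2 hne]
  ring

omit [FiniteDimensional F V] in
theorem nd_span {v : V} (hv : Φ.B v v ≠ 0) : Nd Φ (F ∙ v) := nd_iff.2 fun u hu h => by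
  obtain ⟨a, rfl⟩ := Submodule.mem_span_singleton.1 hu
  have := h v (Submodule.mem_span_singleton_self v)
  rw [B_smul_left, mul_eq_zero_iff_right hv, map_eq_zero] at this
  rw [this, zero_smul]

theorem exists_qrefl (hσ : σ ≠ RingHom.id F) (hn : Φ.Nondeg) (hε : Φ.ε = 1) {p : V} (hp : Φ.B p p ≠ 0) {z : F}
    (hz : σ z * z = 1) : ∃ g ∈ Φ.isom, LinearMap.det (g : End F V) = z ∧
      ∀ x, g x = x + ((z - 1) / Φ.B p p * Φ.B p x) • p := by
  have h1 : σ (Φ.B p p) = Φ.B p p := by simpa [hε] using (Φ.symm p p).symm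
  have hc : σ ((z - 1) / Φ.B p p) + Φ.ε * ((z - 1) / Φ.B p p) +
      σ ((z - 1) / Φ.B p p) * ((z - 1) / Φ.B p p) * Φ.B p p = 0 := by
    rw [hε, map_div₀, h1, map_sub, map_one]
    field_simp
    linear_combination hz
  refine ⟨qrefl hn p _ hc, qrefl_mem hn p _ hc (by simp [Φ.τ_eq_zero hσ, Φ.Q_eq_zero hσ]), ?_,
    qrefl_apply hn p _ hc⟩
  rw [det_qrefl, div_mul_cancel₀ _ hp, add_sub_cancel]

end Gen

variable [Fintype F] {q : ℕ} {hF : Fintype.card F = q ^ 2} {Φ : Formed (frobq hF) V} {f : End F V}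

theorem herm_irr (hn : Φ.Nondeg) (h : Iso Φ f) {p : F[X]} (hp : Irreducible p) (hm : p.Monic)
    (h0 : aeval f p = 0) (hV : 0 < finrank F V) : Odd p.natDegree ∧ p ∣ X ^ (q ^ p.natDegree + 1) - 1 := by
  obtain ⟨r, j, hr, _, hq, -⟩ := exists_frobq hF
  have := Fact.mk hr
  have h1 := card_herm hF
  obtain ⟨A, hA⟩ : ∃ A, HasF (-q) f A := by
    subst hq
    exact exists_hasF hn (fun _ => rfl) (du_herm h1) h
  obtain ⟨k, -, hk⟩ := elemDiv_of_irreducible hp hm h0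
  have h2 : ∀ z ∈ A.bind (ex (qz F) (-q)), mp z.1 = p := fun z hz => mp_eq_of_blk (hA.1 z hz) hp hm
    (Multiset.eq_of_mem_replicate (hk ▸ hA.2 ▸ Multiset.mem_map_of_mem _ hz))
  obtain ⟨z, hz⟩ : ∃ z, z ∈ A := Multiset.exists_mem_of_ne_zero (by
    rintro rfl
    have := hA.dim
    simp [eig] at this
    omega)
  have h3 := mem_bind_ex (Q := qz F) (δ := -q) hz
  have h4 : Cj (qz F) z.1 (z.1 ^ (-q : ℤ)) := h3.2.elim id fun h' =>
    mp_eq_iff.1 ((h2 _ h3.1).trans (h2 _ h').symm)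
  have h5 : qz F = (-q : ℤ) ^ 2 := by simp [qz, hF]
  have h6 := per_card_pos z.1
  have h7 := congrArg Multiset.card (forb_sq (Q := -q) (h5 ▸ h6))
  rw [forb, ← h5, if_pos h4, card_orb, card_orb] at h7
  rw [← h2 _ h3.1, natDegree_mp]
  have h8 := zpow_per (-q) z.1
  rw [← h7] at h8
  have h9 : Odd (per (qz F) z.1) := by
    by_contra ho
    obtain ⟨m, hm⟩ := Nat.not_odd_iff_even.1 ho
    rw [hm, ← two_mul, pow_mul, ← h5] at h8
    have := Nat.le_of_dvd (by omega) (per_dvd_iff.2 h8)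
    omega
  refine ⟨h9, mp_dvd_iff.2 ?_⟩
  rw [h9.neg_pow, _root_.zpow_neg, inv_eq_iff_mul_eq_one, ← Int.natCast_pow, zpow_natCast, ← pow_succ] at h8
  simpa [sub_eq_zero] using congrArg Units.val h8

theorem exists_min (hn : Φ.Nondeg) (h : Iso Φ f) (hV : 0 < finrank F V) :
    ∃ W, Inv f W ∧ 0 < finrank F W ∧ (W ≤ Φ.perp W ∨ (Nd Φ W ∧ Odd (finrank F W) ∧
      ∃ p : F[X], Irreducible p ∧ p.Monic ∧ p.natDegree = finrank F W ∧ W ≤ kerA f p)) := by
  obtain ⟨a, ha⟩ := exists_mem_elemDiv f hV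
  obtain ⟨p, e, hp, hm, he, rfl⟩ := isPP_of_mem ha
  have h1 : kd f p ≠ 0 := fun h0 => hp.not_isUnit
    (((isUnit_aeval_iff.1 (kd_eq_zero_iff.1 h0)) _ ha).isUnit_of_dvd' (dvd_pow_self _ he.ne') dvd_rfl)
  obtain ⟨⟨v, hv⟩, h0⟩ := finrank_pos_iff_exists_ne_zero.1 (Nat.pos_of_ne_zero h1)
  have h2 := finrank_cyc hp hm hv fun e => h0 (Subtype.ext e)
  have h3 : cyc f v ≤ kerA f p := (inv_ker_aeval f p).cyc_le hv
  refine ⟨cyc f v, inv_cyc f v, h2 ▸ hp.natDegree_pos, ?_⟩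
  by_cases h4 : cyc f v ≤ Φ.perp (cyc f v)
  · exact .inl h4
  · have h5 := nd_cyc h hn hp hv h4
    exact .inr ⟨h5, h2 ▸ (herm_irr h5 (h.res (inv_cyc f v)) hp hm ((le_kerA_iff _).1 h3)
      (h2 ▸ hp.natDegree_pos)).1, p, hp, hm, h2.symm, h3⟩

omit [FiniteDimensional F V] in
theorem ts_of_le {W : Submodule F V} (h : W ≤ Φ.perp W) : Φ.TotSing W :=
  ⟨fun x hx _ hy => h hy x hx, fun x _ => Φ.Q_eq_zero (frobq_ne_id hF) x⟩

theorem exists_pair (hn : Φ.Nondeg) {W : Submodule F V} (hW : Inv f W) (h : W ≤ Φ.perp W)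
    (h1 : finrank F W = 1) : ∃ (e e' : V) (l : F), Φ.IsPair e e' ∧ f e = l • e := by
  obtain ⟨e, he, h0, ⟨l, hl⟩, -⟩ := exists_eigen_of_one hW h1
  obtain ⟨e', he'⟩ := hn.exists_isPair h0 ⟨Φ.Q_eq_zero (frobq_ne_id hF) e, h he e he⟩
  exact ⟨e, e', l, he', hl⟩

theorem herm_two (hn : Φ.Nondeg) (hε : Φ.ε = 1) (h : Iso Φ f) (hV : finrank F V = 2) {l : F}
    (hl : ∀ u m, Φ.B u u ≠ 0 → f u = m • u → m = l) :
    ∃ u, u ≠ 0 ∧ Φ.B u u = 0 ∧ ∃ m : F, f u = m • u := by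
  obtain ⟨W, hW, h0, h1⟩ := exists_min hn h (by omega)
  have h2 := W.finrank_le
  rcases h1 with h1 | ⟨h1, ⟨k, h3⟩, -⟩
  · have := hn.two_mul_finrank_le h1
    obtain ⟨u, hu, h0, h4, -⟩ := exists_eigen_of_one hW (by omega)
    exact ⟨u, h0, h1 hu u hu, h4⟩
  · obtain ⟨u, hu, h4, ⟨a, ha⟩, h5⟩ := exists_eigen_of_one hW (by omega)
    obtain ⟨u', hu', h4', ⟨a', ha'⟩, h5'⟩ := exists_eigen_of_one (h.inv_perp hn hW)
      (by rw [hn.finrank_perp]; omega)
    obtain rfl := hl _ _ (B_ne_of_one h1 hu h4 h5) ha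
    obtain rfl := hl _ _ (B_ne_of_one (hn.restrict_perp h1) hu' h4' h5') ha'
    obtain ⟨w, hw, hw'⟩ := exists_sing_herm hF hn hε hV.ge
    refine ⟨w, hw, hw'.2, a', ?_⟩
    obtain ⟨x, y, rfl⟩ := exists_add_of_isCompl (hn.isCompl_perp h1) w
    obtain ⟨b, hb⟩ := h5 _ x.2
    obtain ⟨c, hc⟩ := h5' _ y.2
    rw [hb, hc, map_add, map_smul, map_smul, ha, ha', smul_add, smul_comm a', smul_comm a']

theorem herm_four (hn : Φ.Nondeg) (hε : Φ.ε = 1) (h : Iso Φ f) (hV : finrank F V = 4) (hne : ¬ NE Φ f) :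
    ∃ U, Inv f U ∧ Φ.TotSing U ∧ finrank F U = 2 := by
  obtain ⟨W, hW, h0, h1⟩ := exists_min hn h (by omega)
  have h2 := W.finrank_le
  rcases h1 with h1 | ⟨h1, ⟨k, h3⟩, -⟩
  · have := hn.two_mul_finrank_le h1
    by_cases h4 : finrank F W = 2
    · exact ⟨W, hW, ts_of_le h1, h4⟩
    obtain ⟨e, e', l, hp, he⟩ := exists_pair hn hW h1 (by omega)
    obtain ⟨g, hg, hg'⟩ := exists_step hn h (Φ.τ_eq_zero (frobq_ne_id hF)) hp he
    have h5 := hp.finrank_pairPerp hn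
    obtain ⟨u, h6, h7, m, hm⟩ := herm_two (hp.nondeg_pairPerp hn) hε hg (by omega) (l := l)
      fun u m h6 h7 => by
        obtain ⟨c, hc⟩ := hg' u
        exact eq_of_not_ne hp he hne u.2 h6 (by rw [hc, h7]; rfl)
    obtain ⟨c, hc⟩ := hg' u
    have h8 := Φ.mem_pairPerp.1 u.2
    refine ⟨Submodule.span F (Set.range ![e, u]), ?_, ts_of_le ?_, ?_⟩
    · refine inv_iff_map.1 (Submodule.map_span_le _ _ _ |>.2 ?_)
      have a1 : e ∈ Submodule.span F (Set.range ![e, u]) := Submodule.subset_span ⟨0, rfl⟩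
      have a2 : u.1 ∈ Submodule.span F (Set.range ![e, u]) := Submodule.subset_span ⟨1, rfl⟩
      rintro _ ⟨i, rfl⟩
      fin_cases i
      · exact he ▸ Submodule.smul_mem _ _ a1
      · exact hc ▸ hm ▸ add_mem (Submodule.smul_mem _ _ a2) (Submodule.smul_mem _ _ a1)
    · refine Submodule.span_le.2 ?_
      rintro _ ⟨i, rfl⟩
      refine Φ.mem_perp_span.2 ?_
      rintro _ ⟨j, rfl⟩
      fin_cases i <;> fin_cases j
      exacts [hp.1.2, Φ.B_eq_zero_symm h8.1, h8.1, h7]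
    · refine (finrank_span_eq_card (LinearIndependent.pair_iff.2 fun s t hst => ?_)).trans rfl
      have a1 := congrArg (Φ.B e') hst
      simp only [map_add, map_smul, h8.2, hp.fe, hε, smul_eq_mul, mul_one, mul_zero, add_zero, map_zero] at a1
      rw [a1, zero_smul, zero_add, smul_eq_zero_iff_left fun e => h6 (Subtype.ext e)] at hst
      exact ⟨a1, hst⟩
  · by_cases h4 : finrank F W = 1
    · exact (hne (ne_of_one hW h1 h4)).elim
    · exact (hne (ne_of_one (h.inv_perp hn hW) (hn.restrict_perp h1) (by rw [hn.finrank_perp]; omega))).elim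

theorem det_norm (hn : Φ.Nondeg) (hε : Φ.ε = 1) {g : V ≃ₗ[F] V} (hg : g ∈ Φ.isom) :
    frobq hF (LinearEquiv.det g : Fˣ) * (LinearEquiv.det g : Fˣ) = 1 := by
  rw [LinearEquiv.coe_det]; exact Iso.det_norm (frobq_ne_id hF) hε hn hg

theorem exists_good_nd (hn : Φ.Nondeg) (hε : Φ.ε = 1) (hV : 2 ≤ finrank F V) : ∃ H,
    Good LinearEquiv.det Φ.isom H ∧ ∀ g ∈ Φ.isom, NE Φ (g : End F V) → ∃ x ∈ Φ.isom, x * g * x⁻¹ ∈ H := by
  obtain ⟨n, hn'⟩ := Nat.exists_eq_add_of_le' hV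
  obtain ⟨b, hb⟩ := hn.exists_orthonormal (frobq_ne_id hF) hε hn'
  have hQ := Φ.Q_eq_zero (frobq_ne_id hF)
  refine ⟨stab (F ∙ b 0), ⟨fun g _ => scal_mem_stab _ g, fun g hg => ?_, ?_⟩, fun g hg ⟨v, hv, c, hc⟩ => ?_⟩
  · obtain ⟨k, hk, h1, h2⟩ := exists_qrefl (frobq_ne_id hF) hn hε (p := b 0) (by simp [hb]) (det_norm hn hε hg)
    exact ⟨k, hk, mem_stab_span (c := (LinearEquiv.det g : Fˣ)) (by simp [h2, hb, sub_smul]),
      Units.ext ((LinearEquiv.coe_det _).trans h1)⟩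
  · obtain ⟨g, hg, h⟩ := hn.witt_vec (b.ne_zero 0) (b.ne_zero 1) (by simp [hb]) (by simp [hQ])
    refine ⟨g, hg, fun h' => ?_⟩
    obtain ⟨c, hc⟩ := Submodule.mem_span_singleton.1 ((h' _).1 (Submodule.mem_span_singleton_self _))
    have := congrArg (Φ.B (b 1)) (hc.trans h)
    simp [hb] at this
  · obtain ⟨e, he⟩ := exists_isIso_herm (frobq_ne_id hF) (nd_span hv) (nd_span (v := b 0) (by simp [hb])) hε hε
      (by rw [finrank_span_singleton (b.ne_zero 0), finrank_span_singleton (by rintro rfl; simp at hv)])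
    obtain ⟨x, hx, h, -⟩ := hn.exists_map_eq he
    exact ⟨x, hx, h ▸ conj_mem_stab (mem_stab_span hc)⟩

theorem good_ts (hn : Φ.Nondeg) (hε : Φ.ε = 1) {U : Submodule F V} (hU : Φ.TotSing U) (h0 : 0 < finrank F U) :
    Good LinearEquiv.det Φ.isom (stab U) := by
  refine ⟨fun g _ => scal_mem_stab _ g, fun g hg => ?_, ?_⟩
  · obtain ⟨k, hk, h1⟩ := exists_det_eq_of_totSing hF hn hε (h0.trans_le U.finrank_le) hU
      ((mul_comm _ _).trans (det_norm hn hε hg))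
    exact ⟨k, hk.1, hk.2, Units.ext ((LinearEquiv.coe_det _).trans h1)⟩
  · obtain ⟨b, hb⟩ := hn.exists_orthonormal (frobq_ne_id hF) hε rfl
    obtain ⟨⟨x, hx⟩, h1⟩ := finrank_pos_iff_exists_ne_zero.1 h0
    obtain ⟨i, hi⟩ : ∃ i, Φ.B (b i) x ≠ 0 := by
      by_contra! h
      refine h1 (Subtype.ext (hn.right x fun y => ?_))
      rw [← b.sum_repr y, map_sum, LinearMap.sum_apply]
      exact Finset.sum_eq_zero fun i _ => by rw [B_smul_left, h, mul_zero]
    obtain ⟨a, ha⟩ : ∃ a, frobq hF a ≠ a := by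
      by_contra! h; exact frobq_ne_id hF (RingHom.ext h)
    have ha0 : a ≠ 0 := by rintro rfl; exact ha (map_zero _)
    have ha1 : frobq hF a ≠ 0 := (_root_.map_ne_zero _).2 ha0
    obtain ⟨k, hk, -, h2⟩ := exists_qrefl (frobq_ne_id hF) hn hε (p := b i) (by simp [hb]) (z := a / frobq hF a)
      (by rw [map_div₀, frobq_frobq]; field_simp)
    refine ⟨k, hk, fun h => ?_⟩
    have h3 := (h x).1 hx
    rw [h2, U.add_mem_iff_right hx, U.smul_mem_iff (mul_ne_zero (div_ne_zero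
      (sub_ne_zero.2 fun e => ha (eq_of_div_eq_one e).symm) (by simp [hb])) hi)] at h3
    simpa [hb] using hU.1 _ h3 _ h3

theorem covZ_SU4 (hF : Fintype.card F = q ^ 2) : CovZ (SU 4 F q) := by
  have hn := hermFormed_nondeg hF 4
  obtain ⟨j, hj⟩ := model_SU hF hn rfl (n := 4) (by simp) (by omega)
  obtain ⟨H, hH, h⟩ := exists_good_nd hn rfl (by simp)
  by_cases hU : ∃ U, (hermFormed hF 4).TotSing U ∧ finrank F U = 2
  · obtain ⟨U, hU, h2⟩ := hU
    refine covZ_lin hj hH (good_ts hn rfl hU (by omega)) fun g hg _ => ?_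
    by_cases hne : NE (hermFormed hF 4) (g : End F _)
    · exact (h g hg hne).imp fun _ h => ⟨h.1, .inl h.2⟩
    · obtain ⟨W, h1, h3, h4⟩ := herm_four hn rfl hg (by simp) hne
      obtain ⟨x, hx, rfl⟩ := hn.exists_map_eq_of_totSing h3 hU (h4.trans h2.symm)
      exact ⟨x, hx, .inr (conj_mem_stab (mem_stab_of_le h1))⟩
  · refine covZ_lin hj hH hH fun g hg _ => (h g hg ?_).imp fun _ h => ⟨h.1, .inl h.2⟩
    by_contra hne
    exact hU ((herm_four hn rfl hg (by simp) hne).imp fun _ h => h.2)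

theorem herm_three [CharP F 3] (hn : Φ.Nondeg) (h : Iso Φ f) (hV : finrank F V = 3)
    (hd : LinearMap.det f = 1) (hne : ¬ NE Φ f) : elemDiv f = {(X - C 1) ^ 3} ∨
      ∃ p : F[X], Irreducible p ∧ p.Monic ∧ p.natDegree = 3 ∧ aeval f p = 0 := by
  obtain ⟨W, hW, h0, h1⟩ := exists_min hn h (by omega)
  have h2 := W.finrank_le
  rcases h1 with h1 | ⟨h1, ⟨k, h3⟩, p, hp, hm, h4, h5⟩
  · have := hn.two_mul_finrank_le h1
    obtain ⟨e, e', l, hp, he⟩ := exists_pair hn hW h1 (by omega)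
    obtain ⟨g, hg, hg'⟩ := exists_step hn h (Φ.τ_eq_zero (frobq_ne_id hF)) hp he
    have h5 := hp.finrank_pairPerp hn
    obtain ⟨u, -, h6, ⟨m, hm⟩, h7⟩ := exists_eigen_of_one (Inv.top g) (by rw [finrank_top]; omega)
    have h8 := B_ne_of_one (nd_top (hp.nondeg_pairPerp hn)) trivial h6 h7
    obtain ⟨c, hc⟩ := hg' u
    obtain rfl := eq_of_not_ne hp he hne u.2 h8 (by rw [hc, hm]; rfl)
    have h9 : frobq hF m * m = 1 := by
      have := hg.1 u u
      rwa [hm, B_smul_left, B_smul_right, ← mul_assoc, mul_left_eq_self₀, or_iff_left h8] at this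
    have a1 : (f - m • 1) e = 0 := by simp [he]
    have a2 : ∀ x, Φ.B e x = 0 → (f - m • 1) ((f - m • 1) x) = 0 := fun x hx => by
      obtain ⟨a, b, w, hw, rfl⟩ := hp.exists_decomp x
      obtain ⟨d, hd⟩ := h7 ⟨w, hw⟩ trivial
      obtain rfl : w = d • u := congrArg Subtype.val hd
      have : b = 0 := by simpa [hp.1.2, hp.3, (Φ.mem_pairPerp.1 u.2).1] using hx
      have a3 : (f - m • 1) u = c • e := by simp [hc, hm]
      rw [this, zero_smul, add_zero, map_add, map_smul, map_smul, a1, a3]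
      simp [a1]
    have a3 : (f - m • 1) ^ 3 = 0 := LinearMap.ext fun x => a2 _ (by
      have := h.1 e x
      rw [he, B_smul_left] at this
      simp only [LinearMap.sub_apply, map_sub, LinearMap.smul_apply, Module.End.one_apply, map_smul, smul_eq_mul]
      linear_combination m * this - Φ.B e (f x) * h9)
    have a4 := det_of_isNilpotent_sub ⟨3, a3⟩
    obtain rfl : m = 1 := by
      have : (m - 1) ^ 3 = 0 := by rw [sub_pow_char, ← hV, ← a4, hd, one_pow, sub_self]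
      exact sub_eq_zero.1 (pow_eq_zero_iff (by omega) |>.1 this)
    rw [one_smul] at a1 a3
    refine .inl (hV ▸ elemDiv_of_reg a3 (le_antisymm ?_ ?_))
    · have : kerA f (X - C 1) ≤ Φ.perp (kerA f (X - C 1)) := fun x hx y hy =>
        eq_zero_of_alt_sesq (frobq_ne_id hF) (Φ.restrict (kerA f (X - C 1))).B (fun v => by
          by_contra h0
          exact hne ⟨v, h0, 1, mem_kerA_X_sub_C.1 v.2⟩) ⟨y, hy⟩ ⟨x, hx⟩
      have := hn.two_mul_finrank_le this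
      change finrank F (kerA f (X - C 1)) ≤ 1
      omega
    · exact finrank_pos_iff_exists_ne_zero.2 ⟨⟨e, mem_kerA_X_sub_C.2 he⟩,
        fun e => hp.left_ne_zero (congrArg Subtype.val e)⟩
  · by_cases h6 : finrank F W = 1
    · exact (hne (ne_of_one hW h1 h6)).elim
    · obtain rfl : W = ⊤ := Submodule.eq_top_of_finrank_eq (by omega)
      exact .inr ⟨p, hp, hm, by omega, LinearMap.ext fun v => h5 (Submodule.mem_top (x := v))⟩

end Cfsg.Agent.Classical.Cov
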