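import Cfsg.Agent.Classical.Cov3

/-! Normal 2-coverings, part 4: semilinear maps over a cubic extension and `SU₃(3^a)`. -/

set_option autoImplicit false

namespace Cfsg.Agent.Classical.Cov

open Module Polynomial Matrix Cfsg.Agent.Geom Cfsg.Agent.Geom.Formed Cfsg.Agent.Elu Cfsg.Agent.Classical.Eig

variable {F : Type*} [Field F] {E : Type*} [Field E] [Algebra F E] {V : Type*} [AddCommGroup V] [Module F V]

section Semi
variable [Module E V]

variable (E) in
/-- `F`-linear maps that are semilinear over `E`. -/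
def semi : Subgroup (V ≃ₗ[F] V) where
  carrier := {g | ∃ s : E ≃ₐ[F] E, ∀ (a : E) v, g (a • v) = s a • g v}
  mul_mem' := fun {a b} ⟨s, hs⟩ ⟨t, ht⟩ => ⟨s * t, fun c v => by
    simp only [LinearEquiv.mul_apply, ht, hs, AlgEquiv.mul_apply]⟩
  one_mem' := ⟨1, fun _ _ => rfl⟩
  inv_mem' := fun {a} ⟨s, hs⟩ => ⟨s.symm, fun c v => a.injective (by rw [hs]; simp)⟩

variable [IsScalarTower F E V]

theorem scal_mem_semi (g : V ≃ₗ[F] V) (h : ∃ c : F, ∀ v, g v = c • v) : g ∈ semi E :=
  ⟨1, fun a v => by obtain ⟨c, hc⟩ := h; rw [hc, hc, smul_comm]; rfl⟩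

theorem not_mem_semi [FiniteDimensional F V] (h3 : 3 ≤ finrank F V) (hE : finrank F E ≠ 1) {g : V ≃ₗ[F] V}
    {φ : V →ₗ[F] F} {p v : V} (hp : p ≠ 0) (hv : φ v = 1) (hg : ∀ x, g x = x + φ x • p) : g ∉ semi E := by
  rintro ⟨s, hs⟩
  have h1 : ∀ c, s c = c := fun c => by
    obtain ⟨x, hx, h0⟩ := (Submodule.ne_bot_iff _).1 (LinearMap.ker_ne_bot_of_finrank_lt
      (f := φ.prod (φ ∘ₗ Algebra.lsmul F F V c)) (by simp; omega))
    obtain ⟨h1, h2⟩ : φ x = 0 ∧ φ (c • x) = 0 := Prod.ext_iff.1 hx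
    have := hs c x
    rw [hg, hg, h1, h2, zero_smul, add_zero, add_zero] at this
    exact (smul_left_injective E h0 this).symm
  refine hE (finrank_eq_one_iff'.2 ⟨1, one_ne_zero, fun c => ⟨φ (c • v), smul_left_injective E hp ?_⟩⟩)
  have := hs c v
  rw [hg, hg, h1, hv, one_smul, smul_add, add_right_inj] at this
  simp [this]

end Semi

theorem exists_ext (F : Type*) [Field F] [Finite F] {n : ℕ} (hn : 0 < n) :
    ∃ (E : Type) (_ : Field E) (_ : Fintype E) (_ : Algebra F E), finrank F E = n := by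
  obtain ⟨p, hp⟩ := CharP.exists F
  have : Fact p.Prime := ⟨CharP.char_is_prime F p⟩
  have : NeZero n := ⟨hn.ne'⟩
  exact ⟨FiniteField.Extension F p n, inferInstance, Fintype.ofFinite _, inferInstance,
    FiniteField.finrank_extension F p n⟩

theorem exists_frob [Fintype F] [Finite E] (h3 : finrank F E = 3) :
    ∃ φ : E ≃ₐ[F] E, (∀ x, φ (φ (φ x)) = x) ∧ ∃ c, c + φ c + φ (φ c) ≠ 0 := by
  have := Module.Finite.of_finite (R := F) (M := E)
  refine ⟨FiniteField.frobeniusAlgEquivOfAlgebraic F E, fun x => ?_, ?_⟩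
  · have := pow_orderOf_eq_one (FiniteField.frobeniusAlgEquivOfAlgebraic F E)
    rw [FiniteField.orderOf_frobeniusAlgEquivOfAlgebraic, h3] at this
    exact AlgEquiv.congr_fun this x
  · by_contra! h
    have h1 : aeval (FiniteField.frobeniusAlgHom F E).toLinearMap (1 + X + X ^ 2 : F[X]) = 0 :=
      LinearMap.ext fun c => by simpa [pow_two] using h c
    have h2 := natDegree_le_of_dvd (minpoly.dvd F _ h1) (Monic.ne_zero (by monicity!))
    rw [FiniteField.minpoly_frobeniusAlgHom, h3, ← C_1, natDegree_X_pow_sub_C] at h2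
    have : (C 1 + X + X ^ 2 : F[X]).natDegree ≤ 2 := by compute_degree
    omega

theorem exists_root_of_dvd [Finite F] [Finite E] {p : F[X]} (hp : Irreducible p)
    (h : p.natDegree ∣ finrank F E) : ∃ l : E, aeval l p = 0 := by
  have := Fact.mk hp
  obtain ⟨φ⟩ := FiniteField.nonempty_algHom_of_finrank_dvd (F := F) (K := AdjoinRoot p) (L := E)
    (by rwa [show finrank F (AdjoinRoot p) = _ from finrank_quotient_span_eq_natDegree (f := p)])
  exact ⟨φ (AdjoinRoot.root p), by
    rw [aeval_algHom_apply, AdjoinRoot.aeval_eq, AdjoinRoot.mk_self, map_zero]⟩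

theorem elemDiv_eq_single [Finite F] [FiniteDimensional F V] {f : End F V} {a : F[X]} (h : a ∈ elemDiv f)
    (hd : a.natDegree = finrank F V) : elemDiv f = {a} := by
  obtain ⟨D, hD⟩ := Multiset.exists_cons_of_mem h
  have h1 := dsum_elemDiv f
  rw [hD, dsum_cons, hd, add_eq_left] at h1
  obtain rfl : D = 0 := Multiset.eq_zero_of_forall_notMem fun b hb => by
    obtain ⟨p, e, hp, -, he, rfl⟩ := isPP_of_mem (hD ▸ Multiset.mem_cons_of_mem hb : b ∈ elemDiv f)
    have := Multiset.sum_eq_zero_iff.1 h1 _ (Multiset.mem_map_of_mem _ hb)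
    rw [natDegree_pow] at this
    exact (Nat.mul_pos he hp.natDegree_pos).ne' this
  exact hD

theorem mem_of_nil [Finite F] [FiniteDimensional F V] {f : End F V} {k : ℕ} (h : (f - 1) ^ (k + 1) = 0)
    (h' : (f - 1) ^ k ≠ 0) : (X - C 1) ^ (k + 1) ∈ elemDiv f := by
  rw [← aeval_X_sub_one_pow (F := F), Ne, aeval_eq_zero_iff] at h'
  push Not at h'
  obtain ⟨a, ha, h'⟩ := h'
  obtain ⟨e, -, he, rfl⟩ := exists_of_mem_unip h ha
  rcases he.eq_or_lt with rfl | he
  · exact ha
  · exact (h' (pow_dvd_pow _ (by omega))).elim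

theorem three_eq_zero (E : Type*) [Field E] [Algebra F E] [CharP F 3] : (3 : E) = 0 := by
  have := map_natCast (algebraMap F E) 3
  rw [CharP.cast_eq_zero, map_zero] at this
  exact_mod_cast this.symm

section SU3
variable [Fintype F] [Fintype E] {q : ℕ} (hF : Fintype.card F = q ^ 2) (hE : Fintype.card E = (q ^ 3) ^ 2)

theorem frobq_algebraMap (c : F) : frobq hE (algebraMap F E c) = algebraMap F E (frobq hF c) := by
  rw [frobq_apply, frobq_apply, ← map_pow, pow_succ' q, pow_mul, ← hF, FiniteField.pow_card]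

/-- The trace form `(x, y) ↦ Tr (x ^ (q ^ 3) * y)`. -/
noncomputable def trHerm : Formed (frobq hF) E :=
  ofHerm (frobq_ne_id hF) (frobq_frobq hF)
    (LinearMap.mk₂'ₛₗ (frobq hF) (RingHom.id F) (fun x y => Algebra.trace F E (frobq hE x * y))
      (fun _ _ _ => by rw [map_add, add_mul, map_add])
      (fun c x y => by
        rw [Algebra.smul_def, map_mul (frobq hE), frobq_algebraMap hF, mul_assoc, ← Algebra.smul_def, map_smul])
      (fun _ _ _ => by rw [mul_add, map_add])
      (fun c x y => by rw [mul_smul_comm, map_smul]; rfl))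
    ⟨fun x y => (algebraMap F E).injective (by
      have := Module.Finite.of_finite (R := F) (M := E)
      simp only [LinearMap.mk₂'ₛₗ_apply]
      rw [← frobq_algebraMap hF hE, trace_eq_sum_automorphisms, trace_eq_sum_automorphisms, map_sum]
      refine Finset.sum_congr rfl fun s _ => ?_
      rw [frobq_apply hE (s _), ← map_pow, ← frobq_apply hE, map_mul (frobq hE), frobq_frobq, mul_comm])⟩

theorem trHerm_B (x y : E) : (trHerm hF hE).B x y = Algebra.trace F E (frobq hE x * y) := rfl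

theorem trHerm_nondeg : (trHerm hF hE).Nondeg := fun x hx => by
  have := Module.Finite.of_finite (R := F) (M := E)
  exact (_root_.map_eq_zero _).1 ((traceForm_nondegenerate F E).1 (frobq hE x) hx)

include hF in
theorem covZ_SU3 [CharP F 3] : CovZ (SU 3 F q) := by
  obtain ⟨E, _, _, _, h3⟩ := exists_ext F (n := 3) (by omega)
  have := Module.Finite.of_finite (R := F) (M := E)
  have hE : Fintype.card E = (q ^ 3) ^ 2 := by
    rw [Module.card_eq_pow_finrank (K := F), h3, hF]; ring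
  have hn := trHerm_nondeg hF hE
  have hσ := frobq_ne_id hF
  obtain ⟨j, hj⟩ := model_SU hF hn rfl h3 (by omega)
  obtain ⟨H, hH, h⟩ := exists_good_nd hn rfl (by omega)
  have hm : ∀ l : E, frobq hE l * l = 1 → ∃ y : (trHerm hF hE).isom, ∀ x, y.1 x = l * x := fun l hl =>
    (Iso.exists_isom (f := Algebra.lmul F E l) ⟨fun x y => by
      simp only [trHerm_B, Algebra.coe_lmul_eq_mul, LinearMap.mul_apply', map_mul]
      rw [mul_mul_mul_comm, hl, one_mul], fun _ => rfl⟩ hn).imp fun y hy x => LinearMap.congr_fun hy x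
  have hm' : ∀ (y : E ≃ₗ[F] E) (l : E), (∀ x, y x = l * x) → y ∈ semi E := fun y l hl =>
    ⟨1, fun a v => by simp [hl, mul_left_comm]⟩
  refine covZ_lin hj hH (K := semi E) ⟨fun g _ => scal_mem_semi g, fun g hg => ?_, ?_⟩ fun g hg hd => ?_
  · obtain ⟨c, hc⟩ := surjective_frobenius F 3 (LinearEquiv.det g : Fˣ)
    have h1 := det_norm hn rfl hg
    rw [← hc, frobenius_def, map_pow, ← mul_pow, ← sub_eq_zero, ← one_pow 3, ← sub_pow_char,
      pow_eq_zero_iff (by omega), sub_eq_zero] at h1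
    obtain ⟨y, hy⟩ := hm (algebraMap F E c) (by rw [frobq_algebraMap hF, ← map_mul, h1, map_one])
    refine ⟨y, y.2, hm' _ _ hy, Units.ext ?_⟩
    rw [LinearEquiv.coe_det, show (y.1 : End F E) = c • 1 from LinearMap.ext fun x => by
      simp [hy, Algebra.smul_def], LinearMap.det_smul, map_one, mul_one, h3, ← hc, frobenius_def]
  · obtain ⟨b, hb⟩ := hn.exists_orthonormal hσ rfl h3
    obtain ⟨k, hk, -, h2⟩ := exists_qrefl hσ hn rfl (p := b 0) (by simp [hb]) (z := -1)
      (by rw [map_neg, map_one]; ring)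
    refine ⟨k, hk, not_mem_semi h3.ge (by omega) (φ := (trHerm hF hE).B (b 0)) (b.ne_zero 0) (v := b 0)
      (by simp [hb]) fun x => ?_⟩
    rw [h2, hb, if_pos rfl, div_one, show (-1 - 1 : F) = 1 by linear_combination -three_eq_zero (F := F) F,
      one_mul]
  by_cases hne : NE (trHerm hF hE) (g : End F E)
  · exact (h g hg hne).imp fun _ h => ⟨h.1, .inl h.2⟩
  have key : ∀ y : (trHerm hF hE).isom, y.1 ∈ semi E → elemDiv (g : End F E) = elemDiv (y.1 : End F E) →
      ∃ x ∈ (trHerm hF hE).isom, x * g * x⁻¹ ∈ H ∨ x * g * x⁻¹ ∈ semi E := fun y h1 h2 => by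
    obtain ⟨x, hx⟩ := isConj_iff.1 ((isConj_herm_iff hσ hn (x := ⟨g, hg⟩) (y := y)).2 (exists_equiv_iff.2 h2))
    exact ⟨x, x.2, .inr ((show x.1 * g * x.1⁻¹ = y.1 from congrArg Subtype.val hx) ▸ h1)⟩
  rcases herm_three hn hg h3 (by rw [← LinearEquiv.coe_det, hd]; rfl) hne with h1 | ⟨p, hp, hp', h1, h2⟩
  · obtain ⟨φ, h2, c, hc⟩ := exists_frob h3
    have h4 := three_eq_zero (F := F) E
    refine key ⟨φ.toLinearEquiv, fun x y => ?_, fun _ => rfl⟩ ⟨φ, fun a v => map_mul φ a v⟩
      (h1.trans (elemDiv_eq_single (mem_of_nil (k := 2) (LinearMap.ext fun x => ?_) fun e => hc ?_) ?_).symm)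
    · rw [trHerm_B, trHerm_B, ← Algebra.trace_eq_of_algEquiv φ (_ * y)]
      simp
    · simp [pow_succ, h2]
      linear_combination (φ x - φ (φ x)) * h4
    · have := LinearMap.congr_fun e c
      simp [pow_succ] at this
      linear_combination this + φ c * h4
    · rw [h3, natDegree_pow, natDegree_X_sub_C]
  · obtain ⟨l, hl⟩ := exists_root_of_dvd (E := E) hp (by rw [h1, h3])
    obtain ⟨c, hc⟩ := (herm_irr hn hg hp hp' h2 (by omega)).2
    have h4 := congrArg (aeval l) hc
    simp only [map_sub, map_pow, aeval_X, map_one, map_mul, hl, zero_mul, sub_eq_zero, h1, pow_succ l] at h4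
    obtain ⟨y, hy⟩ := hm l h4
    have h5 : aeval (y.1 : End F E) p = 0 := by
      rw [show (y.1 : End F E) = Algebra.lmul F E l from LinearMap.ext hy, aeval_algHom_apply, hl, map_zero]
    obtain ⟨k, h6, h7⟩ := elemDiv_of_irreducible hp hp' h2
    obtain ⟨k', h6', h7'⟩ := elemDiv_of_irreducible hp hp' h5
    rw [h1, h3] at h6 h6'
    exact key y (hm' _ _ hy) (by rw [h7, h7', show k = k' by omega])

end SU3

end Cfsg.Agent.Classical.Cov
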