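import Cfsg.Agent.Classical.Cov4

/-! Normal 2-coverings, part 5: `Sp₆(3^a)` is covered by `Sp₂ × Sp₄` and `Sp₂(q³).3`. -/

set_option autoImplicit false

namespace Cfsg.Agent.Classical.Cov

open Module Polynomial Matrix Cfsg.Agent.Geom Cfsg.Agent.Geom.Formed Cfsg.Agent.Elu Cfsg.Agent.Classical.Eig
  Cfsg.Agent.Classical.Uc

universe u

variable {F : Type u} [Field F] [Finite F] {V : Type u} [AddCommGroup V] [Module F V] [FiniteDimensional F V]
  {f y : End F V} {ζ ξ : Kb F} {e k : ℕ}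

theorem elemDiv_eq_of_le {D : Multiset F[X]} (h : D ≤ elemDiv f) (hd : dsum D = finrank F V) :
    elemDiv f = D := by
  obtain ⟨D', hD⟩ := Multiset.le_iff_exists_add.1 h
  have h1 := dsum_elemDiv f
  rw [hD, dsum_add, hd, add_eq_left] at h1
  obtain rfl : D' = 0 := Multiset.eq_zero_of_forall_notMem fun b hb => by
    obtain ⟨p, e, hp, -, he, rfl⟩ := isPP_of_mem (hD ▸ Multiset.mem_add.2 (.inr hb) : b ∈ elemDiv f)
    have := Multiset.sum_eq_zero_iff.1 h1 _ (Multiset.mem_map_of_mem _ hb)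
    rw [natDegree_pow] at this
    exact (Nat.mul_pos he hp.natDegree_pos).ne' this
  simpa using hD

open _root_.Classical in
theorem fd_single (ζ : Kb F) (e : ℕ) :
    fd {(ζ, e)} = if mp ζ = mp ζ⁻¹ then {mp ζ ^ e} else {mp ζ ^ e, mp ζ⁻¹ ^ e} := by
  simp only [fd, Multiset.singleton_bind, ex, ← mp_eq_iff, _root_.zpow_neg_one]
  split_ifs <;> simp [blk]

theorem mp_inv (h : mp ξ = mp ζ) : mp ξ⁻¹ = mp ζ⁻¹ := by
  simpa using (du_neg.mp_eq (ζ := ξ) (ξ := ζ)).2 h

theorem fd_congr (h : mp ξ = mp ζ ∨ mp ξ = mp ζ⁻¹) (e : ℕ) : fd {(ξ, e)} = fd {(ζ, e)} := by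
  rw [fd_single, fd_single]
  rcases h with h | h
  · rw [mp_inv h, h]
  · rw [mp_inv h, h, inv_inv]
    by_cases h' : mp ζ = mp ζ⁻¹
    · rw [if_pos h', if_pos h'.symm, h']
    · rw [if_neg h', if_neg (Ne.symm h'), Multiset.pair_comm]

theorem dsum_fd (ζ : Kb F) (e : ℕ) : dsum (fd {(ζ, e)}) = e * dsum (fd {(ζ, 1)}) := by
  rw [fd_single, fd_single]
  split_ifs <;> simp [dsum, mul_add]

omit [Finite F] in
theorem rel_of_add (h : aeval ((ξ : AlgebraicClosure F) + (ξ : AlgebraicClosure F)⁻¹)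
    (minpoly F ((ζ : AlgebraicClosure F) + (ζ : AlgebraicClosure F)⁻¹)) = 0) :
    mp ξ = mp ζ ∨ mp ξ = mp ζ⁻¹ := by
  obtain ⟨s, hs⟩ := minpoly.exists_algEquiv_of_root (Algebra.IsAlgebraic.isAlgebraic _) h
  have h0 : s ξ ≠ 0 := by simp
  have h1 := ζ.ne_zero
  have : (s ξ - ζ) * (s ξ - (ζ : AlgebraicClosure F)⁻¹) = 0 := by
    rw [map_add, map_inv₀] at hs
    field_simp at hs ⊢
    linear_combination hs
  rw [mp, ← minpoly.algEquiv_eq s]
  exact (mul_eq_zero.1 this).imp (fun h => by rw [sub_eq_zero.1 h, mp])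
    fun h => by rw [sub_eq_zero.1 h, mp, Units.val_inv_eq_inv_val]

variable {B : LinearMap.BilinForm F V} {hA : B.IsAlt}

theorem elemDiv_eq_of_mem (hn : (ofAlt B hA).Nondeg) (hf : HasF (-1) f {(ζ, e)}) (hy : Iso (ofAlt B hA) y)
    (h : mp ξ = mp ζ ∨ mp ξ = mp ζ⁻¹) (hk : e ≤ k) (hm : mp ξ ^ k ∈ elemDiv y) : elemDiv f = elemDiv y := by
  obtain ⟨A, hA⟩ := exists_hasF_id hn hy
  obtain ⟨w, hw, h1⟩ := Multiset.mem_map.1 (hA.2 ▸ hm)
  obtain ⟨h2, h3⟩ := (blk_eq_iff (w := (ξ, k)) (hA.1 w hw)).1 h1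
  obtain ⟨z, hz, h4⟩ := of_mem_bind_ex hw
  have h5 : fd {z} = fd {(ζ, k)} := by
    rw [← fd_congr h, show k = z.2 by rcases h4 with rfl | rfl <;> exact h3.symm]
    rcases h4 with rfl | rfl
    · exact fd_congr (.inl h2) _
    · refine fd_congr (.inr ?_) _
      simpa [du] using mp_inv h2
  obtain ⟨A', rfl⟩ := Multiset.exists_cons_of_mem hz
  have h6 : fd {(ζ, k)} ≤ elemDiv y := by
    rw [(hasF_neg.1 hA).2, ← Multiset.singleton_add, fd_add, h5]
    exact Multiset.le_add_right _ _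
  have h7 := dsum_elemDiv f
  obtain ⟨D, h8⟩ := Multiset.le_iff_exists_add.1 h6
  have h9 := dsum_elemDiv y
  rw [h8, dsum_add, ← h7, (hasF_neg.1 hf).2, dsum_fd ζ k, dsum_fd ζ e] at h9
  have h10 : 0 < dsum (fd {(ζ, 1)}) := by
    have := (mp_irr ζ).natDegree_pos
    rw [fd_single]
    split_ifs <;> simp [dsum] <;> omega
  obtain rfl : e = k := le_antisymm hk (Nat.le_of_mul_le_mul_right (by omega) h10)
  rw [(hasF_neg.1 hf).2] at h7 ⊢
  exact (elemDiv_eq_of_le h6 h7).symm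

/-- `f` stabilises a non-degenerate plane. -/
def NP {σ : F →+* F} (Φ : Formed σ V) (f : End F V) : Prop :=
  ∃ W, Inv f W ∧ Nd Φ W ∧ finrank F W = 2

omit [Finite F] in
theorem eq_top_of (hn : (ofAlt B hA).Nondeg) (h : Iso (ofAlt B hA) f) (hV : finrank F V = 6)
    (hf : ¬ NP (ofAlt B hA) f) {W : Submodule F V} (hW : Inv f W) (hW' : Nd (ofAlt B hA) W)
    (h0 : 0 < finrank F W) : finrank F W = 6 := by
  obtain ⟨a, ha⟩ := even_finrank_of_alt (hA := fun x : W => hA x) hW'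
  have h1 := W.finrank_le
  have h2 : finrank F W ≠ 2 := fun e => hf ⟨W, hW, hW', e⟩
  have h3 : finrank F W ≠ 4 := fun e => hf ⟨_, h.inv_perp hn hW, hn.restrict_perp hW', by
    rw [hn.finrank_perp]; omega⟩
  omega

theorem jt_of_res {W : Submodule F V} {hW : Inv f W} {μ : Multiset ℕ} (h : Jt hW.res μ)
    (hd : finrank F W = finrank F V) : Jt f μ := by
  obtain rfl := Submodule.eq_top_of_finrank_eq hd
  exact (elemDiv_congr Submodule.topEquiv fun _ => rfl).symm.trans h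

theorem jt_cases (hn : (ofAlt B hA).Nondeg) (h : Iso (ofAlt B hA) f) (hV : finrank F V = 6)
    (hk : (f - 1) ^ (k + 1) = 0) (hk' : (f - 1) ^ k ≠ 0) (hf : ¬ NP (ofAlt B hA) f ∨ k = 2 ∨ k = 5) :
    (k = 2 ∧ Jt f {3, 3}) ∨ (k = 5 ∧ Jt f {6}) := by
  obtain ⟨W, hW, t, h1, h2, h3⟩ := alt_block (fun x => hA x) hn h hk hk'
  have h4 := h2.sum
  have h5 := W.finrank_le
  rw [Multiset.sum_replicate, smul_eq_mul] at h4
  have h6 : finrank F W = 6 := by
    rcases hf with hf | rfl | rfl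
    · exact eq_top_of hn h hV hf hW h1 (by rcases h3 with rfl | ⟨-, rfl⟩ <;> omega)
    · rcases h3 with rfl | ⟨⟨_, _⟩, rfl⟩ <;> omega
    · rcases h3 with rfl | ⟨-, rfl⟩ <;> omega
  have h7 := jt_of_res h2 (h6.trans hV.symm)
  rcases h3 with rfl | ⟨-, rfl⟩
  · obtain rfl : k = 2 := by omega
    exact .inl ⟨rfl, h7⟩
  · obtain rfl : k = 5 := by omega
    exact .inr ⟨rfl, h7⟩

theorem unit_or_jt [NeZero (2 : F)] (hn : (ofAlt B hA).Nondeg) (h : Iso (ofAlt B hA) f) (hV : finrank F V = 6)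
    (hf : ¬ NP (ofAlt B hA) f) : IsUnit (f - 1) ∨ Jt f {3, 3} ∨ Jt f {6} := by
  refine or_iff_not_imp_left.2 fun hu => ?_
  obtain ⟨k, hk⟩ := not_forall.1 (unit_iff.not.1 hu)
  obtain ⟨U, hU, h1, h2⟩ := exists_top (NeZero.ne _) hn h k
  have h3 := h2.sum
  rw [Multiset.sum_replicate, smul_eq_mul] at h3
  have h4 := jt_of_res h2 ((eq_top_of hn h hV hf hU h1 (h3 ▸ by positivity)).trans hV.symm)
  have H : ∃ j, (f - 1) ^ j = 0 := ⟨k + 1, unip_pow h4 fun a ha => (Multiset.eq_of_mem_replicate ha).le⟩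
  have : Nontrivial V := nontrivial_of_finrank_pos (R := F) (by omega)
  classical
  obtain ⟨j, hj⟩ := Nat.exists_eq_succ_of_ne_zero (n := Nat.find H) fun h0 => by
    simpa [h0] using Nat.find_spec H
  exact (jt_cases hn h hV (k := j) (by simpa [hj] using Nat.find_spec H) (Nat.find_min H (by omega)) (.inl hf)).imp
    And.right And.right

theorem single_of_unit (hn : (ofAlt B hA).Nondeg) {g : V ≃ₗ[F] V} (h : g ∈ (ofAlt B hA).isom)
    (hV : finrank F V = 6) (hf : ¬ NP (ofAlt B hA) (g : End F V)) (h1 : IsUnit ((g : End F V) - 1))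
    (h2 : IsUnit (-(g : End F V) - 1)) : (∀ v, g (g v) = v → v = 0) ∧
      ∃ ζ e, HasF (-1) (g : End F V) {(ζ, e)} ∧ ζ ^ 2 ≠ 1 ∧ eta (qz F) ζ * e = 3 := by
  have h3 : ∀ v, g (g v) = v → v = 0 := fun v hv =>
    (injective_iff_map_eq_zero _).1 ((Module.End.isUnit_iff _).1 (h1.mul h2)).1 v (by simp [hv]; abel)
  refine ⟨h3, ?_⟩
  obtain ⟨A, hA'⟩ := exists_hasF_id hn h
  have h4 : ∀ z ∈ A, z.1 ^ 2 ≠ 1 := fun z hz h0 => by
    have h5 : aeval (g : End F V) ((X - 1) * (-X - 1) : F[X]) = (g - 1) * (-g - 1) := by simp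
    have h6 := isUnit_aeval_iff.1 (h5 ▸ h1.mul h2) _ (hA'.2 ▸ Multiset.mem_map_of_mem _ (mem_bind_ex hz).1)
    refine (mp_irr z.1).not_isUnit (h6.isUnit_of_dvd' (dvd_pow_self _ (hA'.pos z hz).ne') (mp_dvd_iff.2 ?_))
    have := congrArg Units.val h0
    simp only [map_mul, map_sub, aeval_X, map_one, map_neg, Units.val_pow_eq_pow_val, Units.val_one] at this ⊢
    linear_combination -this
  have h5 : bdim A = 6 := hA'.dim.trans hV
  obtain ⟨z, hz⟩ : ∃ z, z ∈ A := Multiset.exists_mem_of_ne_zero (by rintro rfl; simp at h5)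
  obtain ⟨A', rfl⟩ := Multiset.exists_cons_of_mem hz
  have h6 := bdim_cons_ne (A := 0) (h4 z hz)
  have hp := pos_cons.1 hA'.pos
  rw [← Multiset.singleton_add, bdim_add] at h5
  rw [Multiset.cons_zero, bdim_zero, add_zero] at h6
  have hΦ : Spu (ofAlt B hA) := .inl ⟨rfl, rfl, rfl⟩
  obtain ⟨U, a1, a2⟩ := hΦ.exists_nd hn (l := bdim {z}) (by omega) fun _ => h6 ▸ even_two_mul _
  obtain ⟨f₁, b1, b2⟩ := (SpR.of_ne (pos_singleton.2 hp.1) (by simpa using h4 z hz)).2.2 (hΦ.res _) a1 a2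
  obtain ⟨f₂, b3, b4⟩ := (SpR.of_ne hp.2 fun w hw => h4 w (Multiset.mem_cons_of_mem hw)).2.2 (hΦ.res _)
    (hn.restrict_perp a1) (by rw [hn.finrank_perp]; omega)
  obtain ⟨f', c1, c2, c3, rfl, rfl⟩ := exists_iso_sum hn a1 b1 b3
  obtain ⟨g', rfl⟩ := c3.exists_isom hn
  obtain ⟨x, hx⟩ := exists_equiv_iff.2 (show elemDiv (g : End F V) = elemDiv (g'.1 : End F V) by
    rw [elemDiv_of_isCompl (hn.isCompl_perp a1) c1 c2, b2, b4, ← fd_add, (hasF_neg.1 hA').2,
      Multiset.singleton_add])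
  obtain ⟨x, hx, hx'⟩ := exists_intertwine_isom hn hn rfl h.1 g'.2.1 x hx (.inr h3)
  have d1 : (ofAlt B hA).IsIso (ofAlt B hA) x := ⟨hx', fun _ => rfl⟩
  have d2 := eq_top_of hn h hV hf (W := U.map (x.symm : V →ₗ[F] V)) (by
    rintro _ ⟨v, hv, rfl⟩
    exact ⟨g'.1 v, c1 v hv, x.injective (by simp [hx])⟩) ((d1.symm.restrict_map U).nondeg a1) (by
      rw [LinearEquiv.finrank_map_eq, a2, h6]
      have := eta_pos z.1
      have := hp.1
      positivity)
  rw [LinearEquiv.finrank_map_eq, a2] at d2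
  obtain rfl := eq_zero_of_bdim hp.2 (by omega)
  exact ⟨z.1, z.2, hA', h4 z hz, by omega⟩

theorem exists_good_np (hn : (ofAlt B hA).Nondeg) (hV : 2 < finrank F V) : ∃ H,
    Good (1 : _ →* Fˣ) (ofAlt B hA).isom H ∧
      ∀ g : V ≃ₗ[F] V, NP (ofAlt B hA) (g : End F V) → ∃ x ∈ (ofAlt B hA).isom, x * g * x⁻¹ ∈ H := by
  have hΦ : Spu (ofAlt B hA) := .inl ⟨rfl, rfl, rfl⟩
  obtain ⟨U, h1, h2⟩ := hΦ.exists_nd hn (l := 2) hV.le fun _ => even_two
  refine ⟨stab U, ⟨fun g _ => scal_mem_stab _ g, fun _ _ => ⟨1, one_mem _, one_mem _, rfl⟩, ?_⟩,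
    fun g ⟨W, h3, h4, h5⟩ => ?_⟩
  · obtain ⟨⟨x, hx⟩, h0⟩ := finrank_pos_iff_exists_ne_zero.1 (show 0 < finrank F U by omega)
    obtain ⟨y, hy, h3⟩ := nd_iff'.1 h1 x hx fun e => h0 (Subtype.ext e)
    obtain ⟨⟨w, hw⟩, h4⟩ := finrank_pos_iff_exists_ne_zero.1
      (show 0 < finrank F ((ofAlt B hA).perp U) by rw [hn.finrank_perp]; omega)
    have hc : RingHom.id F 1 + (ofAlt B hA).ε * 1 + RingHom.id F 1 * 1 * (ofAlt B hA).B (x + w) (x + w) = 0 := by
      rw [ofAlt_B, hA]; simp [ofAlt]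
    refine ⟨qrefl hn _ 1 hc, qrefl_mem hn _ 1 hc (by simp [ofAlt]), fun h => h4 (Subtype.ext ?_)⟩
    have h5 := (h y).1 hy
    rw [qrefl_apply, U.add_mem_iff_right hy, B_add_left, (ofAlt B hA).B_eq_zero_symm (hw y hy), add_zero,
      one_mul, U.smul_mem_iff h3, U.add_mem_iff_right hx] at h5
    exact Submodule.disjoint_def.1 (hn.isCompl_perp h1).disjoint w h5 hw
  · obtain ⟨e, he⟩ := exists_isIso_alt (hA := fun x : W => hA x) (hA' := fun x : U => hA x) h4 h1
      (h5.trans h2.symm)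
    obtain ⟨x, hx, h, -⟩ := hn.exists_map_eq he
    exact ⟨x, hx, h ▸ conj_mem_stab (mem_stab_of_le h3)⟩

section Model

variable {E : Type u} [Field E] [Algebra F E]

variable (F E) in
/-- The alternating form `Tr (a b' - b a')` on `E × E`. -/
noncomputable def trAlt : LinearMap.BilinForm F (E × E) :=
  LinearMap.mk₂ F (fun x y => Algebra.trace F E (x.1 * y.2 - x.2 * y.1))
    (fun _ _ _ => by rw [← map_add]; congr 1; simp; ring)
    (fun c _ _ => by rw [← map_smul]; congr 1; simp [smul_sub])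
    (fun _ _ _ => by rw [← map_add]; congr 1; simp; ring)
    (fun c _ _ => by rw [← map_smul]; congr 1; simp [smul_sub])

omit [Finite F] in
theorem trAlt_apply (x y : E × E) : trAlt F E x y = Algebra.trace F E (x.1 * y.2 - x.2 * y.1) := rfl

omit [Finite F] in
theorem trAlt_alt : (trAlt F E).IsAlt := fun x => by simp [trAlt_apply, mul_comm]

variable (F E) in
/-- The symplectic space `E × E`. -/
noncomputable abbrev trSp : Formed (RingHom.id F) (E × E) := ofAlt (trAlt F E) trAlt_alt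

theorem trSp_nondeg [Finite E] : (trSp F E).Nondeg := fun x hx => by
  have := Module.Finite.of_finite (R := F) (M := E)
  have h := (traceForm_nondegenerate F E).1
  exact Prod.ext (h _ fun y => by simpa [trAlt_apply] using hx (0, y))
    (h _ fun y => by simpa [trAlt_apply] using hx (y, 0))

/-- A semilinear map given by a matrix and an automorphism. -/
def sl (φ : E ≃ₐ[F] E) (a b c d : E) : End F (E × E) where
  toFun v := (a * φ v.1 + b * φ v.2, c * φ v.1 + d * φ v.2)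
  map_add' _ _ := by ext <;> simp <;> ring
  map_smul' _ _ := by ext <;> simp

omit [Finite F] in
theorem sl_apply (φ : E ≃ₐ[F] E) (a b c d : E) (v : E × E) :
    sl φ a b c d v = (a * φ v.1 + b * φ v.2, c * φ v.1 + d * φ v.2) := rfl

omit [Finite F] in
theorem sl_iso (φ : E ≃ₐ[F] E) {a b c d : E} (h : a * d - b * c = 1) : Iso (trSp F E) (sl φ a b c d) :=
  ⟨fun x y => by
    rw [ofAlt_B, trAlt_apply, trAlt_apply, ← Algebra.trace_eq_of_algEquiv φ (x.1 * y.2 - _)]
    congr 1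
    simp only [sl_apply, map_sub, map_mul]
    linear_combination (φ x.1 * φ y.2 - φ x.2 * φ y.1) * h, fun _ => rfl⟩

/-- `f` is conjugate to a semilinear map. -/
def CS (f : End F (E × E)) : Prop := ∃ (φ : E ≃ₐ[F] E) (a b c d : E) (x : (E × E) ≃ₗ[F] (E × E)),
  x ∈ (trSp F E).isom ∧ ∀ v, x (f v) = sl φ a b c d (x v)

omit [Finite F] in
theorem CS.conj {g : (E × E) ≃ₗ[F] (E × E)} (h : CS (g : End F (E × E))) :
    ∃ x ∈ (trSp F E).isom, x * g * x⁻¹ ∈ semi E := by
  obtain ⟨φ, a, b, c, d, x, hx, h⟩ := h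
  refine ⟨x, hx, φ, fun t v => ?_⟩
  have : ∀ w, (x * g * x⁻¹) w = sl φ a b c d w := fun w => (h _).trans (by simp)
  rw [this, this]
  ext <;> simp [sl_apply] <;> ring

omit [Finite F] in
theorem CS.neg {f : End F (E × E)} (h : CS (-f)) : CS f := by
  obtain ⟨φ, a, b, c, d, x, hx, h⟩ := h
  refine ⟨φ, -a, -b, -c, -d, x, hx, fun v => ?_⟩
  have := h v
  rw [LinearMap.neg_apply, map_neg, neg_eq_iff_eq_neg] at this
  rw [this]
  ext <;> simp [sl_apply] <;> ring

variable [Finite E] [CharP F 3] (h3 : finrank F E = 3) {f : End F (E × E)}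
include h3

omit [Finite F] [CharP F 3] in
theorem finrank_six : finrank F (E × E) = 6 := by
  have := Module.Finite.of_finite (R := F) (M := E)
  rw [finrank_prod, h3]

theorem cs_unip (h : Iso (trSp F E) f) (hf : Jt f {3, 3} ∨ Jt f {6}) : CS f := by
  have := Module.Finite.of_finite (R := F) (M := E)
  have := Fintype.ofFinite F
  have h4 := three_eq_zero (F := F) E
  have h2 : NeZero (2 : F) := ⟨fun h => by
    have := three_eq_zero (F := F) F
    exact one_ne_zero (α := F) (by linear_combination this - h)⟩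
  have hn := trSp_nondeg (F := F) (E := E)
  obtain ⟨φ, hφ, c, hc⟩ := exists_frob h3
  have key : ∀ t μ, Jt f μ → Jt (sl φ 1 t 0 1) μ → (∀ k, Odd k → k + 1 ∈ μ →
      (Dl (trSp F E) f k ↔ Dl (trSp F E) (sl φ 1 t 0 1) k)) → CS f := fun t μ h5 h6 h7 => by
    obtain ⟨x, hx, hx'⟩ := exists_conj _ rfl hn hn rfl rfl h (sl_iso φ (by ring))
      ((sim_unip hn hn h (sl_iso φ (by ring)) h5 h6).2 fun k hk => h7 k (by
        by_contra ho
        rw [(Nat.not_odd_iff_even.1 ho).neg_one_pow, mul_one] at hk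
        have hk' : (-1 : F) = 1 := hk
        exact h2.out (by linear_combination -hk')))
    exact ⟨φ, _, _, _, _, x, hx', hx⟩
  have h5 : ∀ t (v : E × E), ((sl φ 1 t 0 1 - 1 : End F (E × E)) ^ 3) v = ((t + φ t + φ (φ t)) * v.2, 0) :=
    fun t v => by ext <;> simp [pow_succ, sl_apply, hφ] <;> grind
  have h6 : ∀ t, (((sl φ 1 t 0 1 - 1 : End F (E × E)) ^ 2) (0, c)).2 = c + φ c + φ (φ c) := fun t => by
    simp [pow_succ, sl_apply]
    grind
  rcases hf with hf | hf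
  · refine key 0 _ hf ((jt_cases hn (sl_iso φ (by ring)) (finrank_six h3) (k := 2)
      (LinearMap.ext fun v => by simp [h5]) (fun e => hc (by rw [← h6 0, e]; rfl)) (by simp)).resolve_right
        (by simp)).2 fun k ⟨j, hj⟩ hk => by simp at hk; omega
  · have h7 : ∀ t, t + φ t + φ (φ t) ≠ 0 → Jt (sl φ 1 t 0 1) {6} := fun t ht =>
      ((jt_cases hn (sl_iso φ (by ring)) (finrank_six h3) (k := 5) (LinearMap.ext fun v => by
        rw [pow_add _ 3 3, End.mul_apply, h5, h5]; simp) (fun e => mul_ne_zero ht hc (by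
          have := LinearMap.congr_fun e (0, c)
          rw [pow_add _ 3 2, End.mul_apply, h5, h6] at this
          exact congrArg Prod.fst this)) (by simp)).resolve_left (by simp)).2
    obtain ⟨δ, hδ⟩ := FiniteField.exists_nonsquare (F := F) (by rw [ringChar.eq F 3]; omega)
    have hδ0 : δ ≠ 0 := by rintro rfl; exact hδ .zero
    have h8 := dl_scale (k := 5) hn (sl_iso φ (a := 1) (b := c) (c := 0) (d := 1) (by ring))
      (sl_iso φ (a := 1) (b := δ • c) (c := 0) (d := 1) (by ring))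
      ((LinearEquiv.smulOfNeZero F E δ hδ0).prodCongr (.refl F E))
      (fun v => by ext <;> simp [sl_apply]) hδ0 fun a b => by
        simp only [ofAlt_B, trAlt_apply, ← smul_eq_mul, ← map_smul]
        simp [smul_sub]
    rw [Uc.Jt.ct (h7 c hc), show Multiset.count (5 + 1) {6} = 1 by simp, pow_one] at h8
    have h9 : ∀ k, k + 1 ∈ ({6} : Multiset ℕ) → k = 5 := fun k hk => by simpa using hk
    by_cases h10 : Dl (trSp F E) f 5 ↔ Dl (trSp F E) (sl φ 1 c 0 1) 5
    · exact key c _ hf (h7 c hc) fun k _ hk => h9 k hk ▸ h10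
    · refine key (δ • c) _ hf (h7 _ ?_) fun k _ hk => h9 k hk ▸ by tauto
      simpa [← smul_add, hδ0] using hc

theorem exists_sl {ζ : Kb F} {e : ℕ} (h2 : ζ ^ 2 ≠ 1) (he : eta (qz F) ζ * e = 3) :
    ∃ (φ : E ≃ₐ[F] E) (t : E) (ξ : Kb F) (k : ℕ), (mp ξ = mp ζ ∨ mp ξ = mp ζ⁻¹) ∧ e ≤ k ∧
      mp ξ ^ k ∈ elemDiv (sl φ 0 (-1) 1 t) := by
  have := Module.Finite.of_finite (R := F) (M := E)
  have := Fintype.ofFinite F
  have h4 := three_eq_zero (F := F) E
  have hn := trSp_nondeg (F := F) (E := E)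
  set τ := (ζ : AlgebraicClosure F) + (ζ : AlgebraicClosure F)⁻¹ with hτ
  have hi : IsIntegral F τ := Algebra.IsIntegral.isIntegral τ
  have h5 : (minpoly F τ).natDegree ∣ eta (qz F) ζ := by
    refine (minpoly.irreducible hi).natDegree_dvd_of_dvd_X_pow_card_pow_sub_X (minpoly.dvd F _ ?_)
    obtain ⟨n, -, hn⟩ := FiniteField.card F 3
    have a1 := coe_zpow_card ζ (eta (qz F) ζ)
    simp only [map_sub, map_pow, aeval_X, sub_eq_zero, hτ]
    rw [Nat.card_eq_fintype_card, hn, ← pow_mul] at a1 ⊢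
    rw [add_pow_char_pow, inv_pow, ← a1]
    rcases eta_dvd_iff.1 (dvd_refl (eta (qz F) ζ)) with h | h <;> simp [h, add_comm]
  have hT : ∀ φ t, ∃ L, HasT (sl φ 0 (-1) 1 t : End F (E × E)) L := fun φ t =>
    exists_hasT ((Module.End.isUnit_iff _).2 ⟨(sl_iso φ (by ring)).injective hn,
      (sl_iso φ (by ring)).surjective hn⟩)
  rcases (Nat.prime_three.eq_one_or_self_of_dvd _ ⟨_, he.symm⟩) with h6 | h6
  · obtain ⟨φ, hφ, c, hc⟩ := exists_frob h3
    obtain ⟨t, ht⟩ := minpoly.natDegree_eq_one_iff.1 (Nat.dvd_one.1 (h6 ▸ h5))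
    obtain ⟨L, hL⟩ := hT φ (algebraMap F E t)
    let P : F[X] := X ^ 2 - C t * X + 1
    have a0 : ∀ v, aeval (sl φ 0 (-1) 1 (algebraMap F E t)) P v = sl φ 0 (-1) 1 (algebraMap F E t)
        (sl φ 0 (-1) 1 (algebraMap F E t) v) - t • sl φ 0 (-1) 1 (algebraMap F E t) v + v := fun v => by
      simp [P, pow_two]
    have a1 : aeval (sl φ 0 (-1) 1 (algebraMap F E t)) (P ^ 3) = 0 := LinearMap.ext fun v => by
      simp only [pow_succ, pow_zero, one_mul, map_mul, End.mul_apply, a0]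
      ext <;> simp [sl_apply, hφ, Algebra.smul_def] <;> grind
    have a2 : aeval (sl φ 0 (-1) 1 (algebraMap F E t)) (P ^ 2) ≠ 0 := fun e => by
      have := congrArg Prod.fst (LinearMap.congr_fun e (c, 0))
      simp only [pow_succ, pow_zero, one_mul, map_mul, End.mul_apply, a0] at this
      simp [sl_apply, hφ, Algebra.smul_def] at this
      have b1 : algebraMap F E (4 - t ^ 2) * (c + φ c + φ (φ c)) = 0 := by
        rw [map_sub, map_pow, map_ofNat]; grind
      rw [mul_eq_zero_iff_right hc, _root_.map_eq_zero] at b1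
      have b2 := congrArg (algebraMap F (AlgebraicClosure F)) b1
      rw [map_sub, map_pow, map_ofNat, map_zero, show algebraMap F _ t = τ from ht, hτ] at b2
      have b3 := ζ.ne_zero
      have b4 : ((ζ : AlgebraicClosure F) ^ 2 - 1) ^ 2 = 0 := by
        field_simp at b2
        linear_combination -b2
      exact h2 (Units.ext (by simpa [sub_eq_zero] using b4))
    rw [Ne, aeval_eq_zero_iff] at a2
    push Not at a2
    obtain ⟨a, ha, a2⟩ := a2
    obtain ⟨w, hw, rfl⟩ := Multiset.mem_map.1 (hL.2 ▸ ha)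
    have a3 : mp w.1 ∣ P := (mp_irr _).prime.dvd_of_dvd_pow
      ((dvd_pow_self _ (hL.1 w hw).ne').trans (aeval_eq_zero_iff.1 a1 _ ha))
    refine ⟨φ, _, w.1, w.2, rel_of_add ?_, ?_, ha⟩
    · have b1 := mp_dvd_iff.1 a3
      have b2 := w.1.ne_zero
      simp only [P, map_add, map_sub, map_pow, map_mul, aeval_X, aeval_C, map_one,
        show algebraMap F _ t = τ from ht] at b1
      rw [show (w.1 : AlgebraicClosure F) + (w.1 : AlgebraicClosure F)⁻¹ = τ by
        field_simp; linear_combination b1]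
      exact minpoly.aeval F τ
    · by_contra hlt
      exact a2 ((pow_dvd_pow_of_dvd a3 _).trans (pow_dvd_pow _ (by rw [h6] at he; omega)))
  · obtain ⟨t, ht⟩ := exists_root_of_dvd (E := E) (minpoly.irreducible hi) (by rwa [h3, ← h6])
    obtain ⟨L, hL⟩ := hT 1 t
    obtain ⟨a, ha⟩ := exists_mem_elemDiv (sl 1 0 (-1) 1 t : End F (E × E)) (by rw [finrank_six h3]; omega)
    obtain ⟨w, hw, rfl⟩ := Multiset.mem_map.1 (hL.2 ▸ ha)
    refine ⟨1, t, w.1, w.2, rel_of_add ?_, by have := hL.1 w hw; rw [h6] at he; omega, ha⟩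
    have : Finite (End F (E × E)) := Finite.of_injective _ DFunLike.coe_injective
    obtain ⟨M, hM, hM'⟩ := isOfFinOrder_iff_pow_eq_one.1 hL.isUnit.isOfFinOrder
    obtain ⟨M, rfl⟩ := Nat.exists_eq_add_one.2 hM
    have a1 : sl 1 0 (-1) 1 t + sl 1 0 (-1) 1 t ^ M = Algebra.lsmul F F (E × E) t := LinearMap.ext fun v => by
      obtain ⟨v, rfl⟩ := (sl_iso (F := F) 1 (a := 0) (b := -1) (c := 1) (d := t) (by ring)).surjective hn v
      rw [LinearMap.add_apply, ← End.mul_apply (_ ^ M), ← pow_succ, hM']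
      ext <;> simp [sl_apply]
    have a2 : ∀ b : F[X], aeval (sl 1 0 (-1) 1 t : End F (E × E)) b = 0 →
        aeval (w.1 : AlgebraicClosure F) b = 0 := fun b hb =>
      mp_dvd_iff.1 ((dvd_pow_self _ (hL.1 w hw).ne').trans (aeval_eq_zero_iff.1 hb _ ha))
    have a3 := a2 (X ^ (M + 1) - 1) (by simp [hM'])
    have a4 := a2 ((minpoly F τ).comp (X + X ^ M)) (by
      rw [aeval_comp, map_add, map_pow, aeval_X, a1, aeval_algHom_apply, ht, map_zero])
    rw [map_sub, map_pow, aeval_X, map_one, sub_eq_zero, pow_succ] at a3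
    rwa [aeval_comp, map_add, map_pow, aeval_X, eq_inv_of_mul_eq_one_left a3] at a4

theorem cs_of_not_np {g : (E × E) ≃ₗ[F] (E × E)} (hg : g ∈ (trSp F E).isom)
    (h : ¬ NP (trSp F E) (g : End F (E × E))) : CS (g : End F (E × E)) := by
  have := Module.Finite.of_finite (R := F) (M := E)
  have h2 : NeZero (2 : F) := ⟨fun h => by
    have := three_eq_zero (F := F) F
    exact one_ne_zero (α := F) (by linear_combination this - h)⟩
  have hn := trSp_nondeg (F := F) (E := E)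
  have h6 := finrank_six h3
  rcases unit_or_jt hn hg h6 h with h4 | h4
  swap
  · exact cs_unip h3 hg h4
  rcases unit_or_jt hn (iso_neg hg) h6 (fun ⟨W, a, b⟩ => h ⟨W, fun v hv => by
    simpa using a v hv, b⟩) with h5 | h5
  swap
  · exact (cs_unip h3 (iso_neg hg) h5).neg
  obtain ⟨a1, ζ, e, a2, a3, a4⟩ := single_of_unit hn hg h6 h h4 h5
  obtain ⟨φ, t, ξ, k, b1, b2, b3⟩ := exists_sl h3 a3 a4
  have c1 := sl_iso φ (a := 0) (b := -1) (c := 1) (d := t) (by ring)
  obtain ⟨x, hx⟩ := exists_equiv_iff.2 (elemDiv_eq_of_mem hn a2 c1 b1 b2 b3)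
  obtain ⟨y, hy⟩ := c1.exists_isom hn
  obtain ⟨x, hx, hx'⟩ := exists_intertwine_isom hn hn rfl hg.1 y.2.1 x
    (fun v => (hx v).trans (LinearMap.congr_fun hy _).symm) (.inr a1)
  exact ⟨φ, _, _, _, _, x, ⟨hx', fun _ => rfl⟩, fun v => (hx v).trans (LinearMap.congr_fun hy _)⟩

end Model

theorem covZ_sp6 {F : Type} [Field F] [Finite F] [CharP F 3] : CovZ (symplecticGroup (Fin 3) F) := by
  obtain ⟨E, _, _, _, h3⟩ := exists_ext F (n := 3) (by omega)
  have := Module.Finite.of_finite (R := F) (M := E)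
  have hn := trSp_nondeg (F := F) (E := E)
  have h6 := finrank_six h3
  obtain ⟨j, hj⟩ := model_sp hn (m := 3) h6
  obtain ⟨H, hH, h⟩ := exists_good_np hn (by omega)
  refine covZ_lin hj hH (K := semi E) ⟨fun g _ => scal_mem_semi g, fun _ _ => ⟨1, one_mem _, one_mem _, rfl⟩, ?_⟩
    fun g hg _ => ?_
  · have h0 : ((1, 0) : E × E) ≠ 0 := by simp
    obtain ⟨v, hv⟩ := hn.exists_eq_one h0
    have hc : RingHom.id F 1 + (trSp F E).ε * 1 + RingHom.id F 1 * 1 * (trSp F E).B (1, 0) (1, 0) = 0 := by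
      rw [ofAlt_B, trAlt_alt]; simp [ofAlt]
    exact ⟨qrefl hn _ 1 hc, qrefl_mem hn _ 1 hc (by simp [ofAlt]),
      not_mem_semi (by omega) (by omega) h0 hv fun x => by rw [qrefl_apply, one_mul]⟩
  · by_cases hne : NP (trSp F E) (g : End F (E × E))
    · exact (h g hne).imp fun _ h => ⟨h.1, .inl h.2⟩
    · exact (cs_of_not_np h3 hg hne).conj.imp fun _ h => ⟨h.1, .inr h.2⟩

end Cfsg.Agent.Classical.Cov
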