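import Cfsg.Agent.Classical.Eig7
import Cfsg.Agent.Low.CentInv

/-! Homocyclic subgroups `(Z_m)^a` of block-diagonal type (`Hc`), block embeddings of `GL` and `Sp`, and
the `r`-parts of `q ^ i - 1`: Sylow `r`-subgroups of `GL_n`, `SL_n`, `Sp_2n` for `r > n`. -/

set_option autoImplicit false

namespace Cfsg.Agent.Classical.HC

open Function Module Polynomial Cfsg.Agent.Geom Cfsg.Agent.Geom.Formed Cfsg.Agent.Num
  Cfsg.Agent.Classical.Eig

/-- `G` contains `(Z_m)^a`. -/
def Hc (G : Type*) [Group G] (m a : ℕ) : Prop :=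
  ∃ φ : (Fin a → Multiplicative (ZMod m)) →* G, Injective φ

variable {G H : Type*} [Group G] [Group H] {m a b : ℕ}

theorem Hc.zero : Hc G m 0 := ⟨1, fun _ _ _ => Subsingleton.elim _ _⟩

theorem Hc.triv : Hc G 1 a := ⟨1, fun _ _ _ => Subsingleton.elim _ _⟩

theorem Hc.map (h : Hc G m a) (ψ : G →* H) (hψ : Injective ψ) : Hc H m a :=
  let ⟨φ, hφ⟩ := h; ⟨ψ.comp φ, hψ.comp hφ⟩

theorem Hc.one {g : G} (h : orderOf g = m) : Hc G m 1 := by
  subst h
  rw [← Nat.card_zpowers]
  exact ⟨((Subgroup.zpowers g).subtype.comp (zmodCyclicMulEquiv inferInstance).toMonoidHom).comp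
    (Pi.evalMonoidHom _ 0), (Subtype.val_injective.comp (zmodCyclicMulEquiv inferInstance).injective).comp
      fun _ _ h => funext fun i => by rwa [Subsingleton.elim i 0]⟩

theorem Hc.prod (h : Hc G m a) (h' : Hc H m b) : Hc (G × H) m (a + b) := by
  obtain ⟨φ, hφ⟩ := h
  obtain ⟨ψ, hψ⟩ := h'
  refine ⟨(φ.comp (.pi fun i => Pi.evalMonoidHom _ (Fin.castAdd b i))).prod
    (ψ.comp (.pi fun i => Pi.evalMonoidHom _ (Fin.natAdd a i))), fun x y h => funext fun i => ?_⟩
  induction i using Fin.addCases with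
  | left i => exact congrFun (hφ (congrArg Prod.fst h)) i
  | right i => exact congrFun (hψ (congrArg Prod.snd h)) i

theorem Hc.blocks {P : ℕ → Type*} [∀ n, Group (P n)]
    (hP : ∀ a b, ∃ ψ : P a × P b →* P (a + b), Injective ψ) {d : ℕ} (h : Hc (P d) m 1) :
    ∀ a n, a * d ≤ n → Hc (P n) m a
  | 0, _, _ => .zero
  | a + 1, n, hn => by
    obtain ⟨n, rfl⟩ := Nat.exists_eq_add_of_le' (show d ≤ n by nlinarith)
    obtain ⟨ψ, hψ⟩ := hP n d
    exact ((Hc.blocks hP h a n (by nlinarith)).prod h).map ψ hψ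

theorem Hc.sylow [Finite G] {r k : ℕ} [hr : Fact r.Prime] (h : Hc G (r ^ k) a)
    (hc : padicValNat r (Nat.card G) = a * k) (P : Sylow r G) :
    Nonempty (P ≃* (Fin a → Multiplicative (ZMod (r ^ k)))) := by
  obtain ⟨φ, hφ⟩ := h
  have h1 : Nat.card φ.range = r ^ (Nat.card G).factorization r := by
    rw [← Nat.card_congr (MonoidHom.ofInjective hφ).toEquiv, Nat.factorization_def _ hr.out, hc]
    simp [← pow_mul, mul_comm]
  exact ⟨(P.equiv (Sylow.ofCard _ h1)).trans (MonoidHom.ofInjective hφ).symm⟩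

section Num
variable {q r i : ℕ} [hr : Fact r.Prime]

theorem ord_pos (h : ¬ r ∣ q) : 0 < orderOf (q : ZMod r) :=
  orderOf_pos_iff.2 (isOfFinOrder_iff_isUnit.2 ((ZMod.isUnit_iff_coprime _ _).2
    ((hr.out.coprime_iff_not_dvd).2 h).symm))

theorem val_sub (hq : 1 < q) (h : ¬ r ∣ q) (hi : ¬ r ∣ i) (h2 : r = 2 → i = 1) :
    padicValNat r (q ^ i - 1) =
      if orderOf (q : ZMod r) ∣ i then padicValNat r (q ^ orderOf (q : ZMod r) - 1) else 0 := by
  split_ifs with hd
  · rcases hr.out.eq_two_or_odd' with h3 | h3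
    · rw [h2 h3] at hd ⊢
      rw [Nat.dvd_one.1 hd]
    obtain ⟨j, hj⟩ := hd
    have := padicValNat.pow_sub_pow h3 (Nat.one_lt_pow (ord_pos h).ne' hq)
      ((dvd_pow_sub_one_iff_orderOf hq _).2 dvd_rfl) (fun h' => h (hr.out.dvd_of_dvd_pow h'))
      (n := j) (by rintro rfl; simp [hj] at hi)
    rw [← pow_mul, one_pow, ← hj] at this
    rw [this, padicValNat.eq_zero_of_not_dvd (n := j) fun h' => hi (hj ▸ h'.mul_left _), add_zero]
  · exact padicValNat.eq_zero_of_not_dvd fun h' => hd ((dvd_pow_sub_one_iff_orderOf hq _).1 h')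

theorem val_prod {ι : Type*} (s : Finset ι) {f : ι → ℕ} (h : ∀ i ∈ s, f i ≠ 0) :
    padicValNat r (∏ i ∈ s, f i) = ∑ i ∈ s, padicValNat r (f i) := by
  simp only [← Nat.factorization_def _ hr.out, Nat.factorization_prod_apply h]

theorem val_Phi (hq : 1 < q) (h : ¬ r ∣ q) :
    padicValNat r ((cyclotomic (orderOf (q : ZMod r)) ℤ).eval (q : ℤ)).natAbs =
      padicValNat r (q ^ orderOf (q : ZMod r) - 1) := by
  set d := orderOf (q : ZMod r) with hd
  have h0 : 0 < d := ord_pos h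
  have h1 : ∏ e ∈ d.divisors, Phi e q = q ^ d - 1 := by
    zify [Phi_cast hq, cast_pow_sub_one hq]
    rw [← eval_prod, prod_cyclotomic_eq_X_pow_sub_one h0]
    simp
  rw [← h1, val_prod _ fun e _ => (Phi_pos hq e).ne',
    Finset.sum_eq_single_of_mem d (by simp [h0.ne']) fun e he hne =>
      padicValNat.eq_zero_of_not_dvd fun h' => hne (Nat.dvd_antisymm (Nat.dvd_of_mem_divisors he)
        ((dvd_pow_sub_one_iff_orderOf hq _).1 (h'.trans (Phi_dvd hq e))))]
  rfl

theorem val_prod_sub (hq : 1 < q) (h : ¬ r ∣ q) (s : Finset ℕ) (c : ℕ) {f : ℕ → ℕ}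
    (hi : ∀ i ∈ s, ¬ r ∣ f i) (h2 : ∀ i ∈ s, r = 2 → f i = 1) :
    padicValNat r (q ^ c * ∏ i ∈ s, (q ^ f i - 1)) =
      (s.filter fun i => orderOf (q : ZMod r) ∣ f i).card *
        padicValNat r (q ^ orderOf (q : ZMod r) - 1) := by
  have h0 : ∀ i ∈ s, q ^ f i - 1 ≠ 0 := fun i hi' => Nat.sub_ne_zero_of_lt
    (Nat.one_lt_pow (by rintro h; exact hi i hi' (h ▸ dvd_zero _)) hq)
  rw [padicValNat.mul (by positivity) (Finset.prod_ne_zero_iff.2 h0), val_prod _ h0,
    padicValNat.eq_zero_of_not_dvd fun h' => h (hr.out.dvd_of_dvd_pow h'), zero_add,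
    Finset.sum_congr rfl fun i hi' => val_sub hq h (hi i hi') (h2 i hi'), ← Finset.sum_filter]
  simp

theorem prod_GL (q n : ℕ) : ∏ i : Fin n, (q ^ n - q ^ (i : ℕ)) =
    q ^ (∑ i ∈ Finset.range n, i) * ∏ i ∈ Finset.range n, (q ^ (i + 1) - 1) := by
  rw [← Finset.prod_range_reflect (fun i => q ^ (i + 1) - 1), ← Finset.prod_pow_eq_pow_sum,
    ← Finset.prod_mul_distrib, Fin.prod_univ_eq_prod_range (fun i => q ^ n - q ^ i)]
  refine Finset.prod_congr rfl fun i hi => ?_
  rw [Nat.mul_sub, mul_one, ← pow_add]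
  have := Finset.mem_range.1 hi
  congr 2
  omega

theorem card_filter_Icc (c n : ℕ) (P : ℕ → Prop) [DecidablePred P] :
    ((Finset.Icc c n).filter P).card = ((Finset.range (n + 1 - c)).filter fun i => P (i + c)).card :=
  Finset.card_nbij' (· - c) (· + c)
    (fun i hi => by simp only [Finset.coe_filter, Finset.mem_Icc, Finset.mem_range, Set.mem_ofPred_eq] at *
                    exact ⟨by omega, by rw [Nat.sub_add_cancel hi.1.1]; exact hi.2⟩)
    (fun i hi => by simp only [Finset.coe_filter, Finset.mem_Icc, Finset.mem_range, Set.mem_ofPred_eq] at *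
                    exact ⟨by omega, hi.2⟩)
    (fun i hi => Nat.sub_add_cancel (Finset.mem_Icc.1 (Finset.mem_filter.1 hi).1).1)
    fun i _ => Nat.add_sub_cancel ..

end Num

variable {F : Type*} [Field F]

theorem gl_block (a b : ℕ) :
    ∃ ψ : GL (Fin a) F × GL (Fin b) F →* GL (Fin (a + b)) F, Injective ψ := by
  let φ : Matrix (Fin a) (Fin a) F × Matrix (Fin b) (Fin b) F →*
      Matrix (Fin a ⊕ Fin b) (Fin a ⊕ Fin b) F :=
    { toFun := fun x => Matrix.fromBlocks x.1 0 0 x.2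
      map_one' := Matrix.fromBlocks_one
      map_mul' := fun x y => by simp [Matrix.fromBlocks_multiply] }
  have hφ : Injective φ := fun x y h =>
    Prod.ext (Matrix.fromBlocks_inj.1 h).1 (Matrix.fromBlocks_inj.1 h).2.2.2
  exact ⟨(Units.map ((Matrix.reindexAlgEquiv F F finSumFinEquiv).toMulEquiv.toMonoidHom.comp φ)).comp
    MulEquiv.prodUnits.symm.toMonoidHom, (Units.map_injective
      ((Matrix.reindexAlgEquiv F F finSumFinEquiv).injective.comp hφ)).comp
        MulEquiv.prodUnits.symm.injective⟩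

theorem sp_block (a b : ℕ) : ∃ ψ : Matrix.symplecticGroup (Fin a) F × Matrix.symplecticGroup (Fin b) F →*
    Matrix.symplecticGroup (Fin (a + b)) F, Injective ψ := by
  let B : LinearMap.BilinForm F ((Fin a ⊕ Fin a → F) × (Fin b ⊕ Fin b → F)) :=
    (sympB a F).comp (.fst _ _ _) (.fst _ _ _) + (sympB b F).comp (.snd _ _ _) (.snd _ _ _)
  have hB : ∀ u v, B u v = sympForm a F u.1 v.1 + sympForm b F u.2 v.2 := fun _ _ => by
    simp [B, sympB_apply]
  have hA : B.IsAlt := fun u => by simp [hB]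
  have hn : (ofAlt B hA).Nondeg := fun x hx => Prod.ext
    (eq_zero_of_sympForm_eq_zero fun v => by simpa [ofAlt_B, hB] using hx (v, 0))
    (eq_zero_of_sympForm_eq_zero fun v => by simpa [ofAlt_B, hB] using hx (0, v))
  obtain ⟨e, he⟩ := exists_isIso_sympFormed hn (m := a + b) (by simp; ring)
  let φ : (sympFormed a F).isom × (sympFormed b F).isom →* (ofAlt B hA).isom :=
    { toFun := fun x => ⟨x.1.1.prodCongr x.2.1, fun u v => by
        simp only [ofAlt_B, hB, LinearEquiv.prodCongr_apply, (mem_sympFormed_isom _ _).1 x.1.2,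
          (mem_sympFormed_isom _ _).1 x.2.2], fun _ => rfl⟩
      map_one' := rfl
      map_mul' := fun _ _ => rfl }
  have hφ : Injective φ := fun x y h => by
    have := fun u => LinearEquiv.congr_fun (congrArg Subtype.val h) u
    exact Prod.ext (Subtype.ext (LinearEquiv.ext fun u => congrArg Prod.fst (this (u, 0))))
      (Subtype.ext (LinearEquiv.ext fun u => congrArg Prod.snd (this (0, u))))
  exact ⟨((he.isomCongr.trans (spEquiv _ F).symm).toMonoidHom.comp φ).comp
    ((spEquiv a F).prodCongr (spEquiv b F)).toMonoidHom,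
    ((he.isomCongr.trans (spEquiv _ F).symm).injective.comp hφ).comp
      ((spEquiv a F).prodCongr (spEquiv b F)).injective⟩

variable [Finite F] {r : ℕ} [hr : Fact r.Prime]

/-- An element of order the `r`-part of `q ^ d - 1` in the algebraic closure. -/
theorem exists_zeta (h : ¬ r ∣ Nat.card F) : ∃ ζ : Kb F,
    orderOf ζ = r ^ padicValNat r (Nat.card F ^ orderOf (Nat.card F : ZMod r) - 1) ∧ r ∣ orderOf ζ ∧
      per (qz F) ζ = orderOf (Nat.card F : ZMod r) := by
  obtain ⟨p, _⟩ := CharP.exists F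
  have hp := Fact.mk (CharP.char_is_prime F p)
  have hq : 1 < Nat.card F := Finite.one_lt_card
  obtain ⟨ζ, hζ⟩ := exists_ord (F := F) (p := p)
    (m := r ^ padicValNat r (Nat.card F ^ orderOf (Nat.card F : ZMod r) - 1)) fun h' => h (by
      rw [← (Nat.prime_dvd_prime_iff_eq hp.out hr.out).1 (hp.out.dvd_of_dvd_pow h')]
      exact Int.natCast_dvd_natCast.1 char_dvd_card)
  have h1 : r ∣ orderOf ζ := hζ ▸ dvd_pow_self _ (one_le_padicValNat_of_dvd (Nat.sub_ne_zero_of_lt
    (Nat.one_lt_pow (ord_pos h).ne' hq)) ((dvd_pow_sub_one_iff_orderOf hq _).2 dvd_rfl) |> Nat.ne_of_gt)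
  refine ⟨ζ, hζ, h1, Nat.dvd_antisymm (per_dvd_iff'.2 ?_) ((dvd_pow_sub_one_iff_orderOf hq _).1 ?_)⟩
  · rw [← cast_pow_sub_one hq, Int.natCast_dvd_natCast, hζ]
    exact pow_padicValNat_dvd
  · have := per_dvd_iff'.1 (dvd_refl (per (qz F) ζ))
    rw [← cast_pow_sub_one hq, Int.natCast_dvd_natCast] at this
    exact h1.trans this

theorem hc_GL (h : ¬ r ∣ Nat.card F) (n : ℕ) : Hc (GL (Fin n) F)
    (r ^ padicValNat r (Nat.card F ^ orderOf (Nat.card F : ZMod r) - 1))
      (n / orderOf (Nat.card F : ZMod r)) := by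
  obtain ⟨ζ, h1, -, h3⟩ := exists_zeta h
  obtain ⟨p, _⟩ := CharP.exists F
  have hp := Fact.mk (CharP.char_is_prime F p)
  refine Hc.blocks (P := fun n => GL (Fin n) F) gl_block ?_ _ _ (Nat.div_mul_le_self _ _)
  obtain ⟨f, hf⟩ := exists_of_tdim (V := Fin (orderOf (Nat.card F : ZMod r)) → F) (L := {(ζ, 1)})
    (by simp) (by simp [h3])
  obtain ⟨u, rfl⟩ := hf.isUnit
  refine Hc.one (g := Matrix.GeneralLinearGroup.toLin.symm u) ?_
  rw [MulEquiv.orderOf_eq, ← orderOf_units, ← h1, orderOf_eq_iff_forall]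
  exact fun k => by simpa [orderOf_dvd_iff_pow_eq_one] using (hasF_card.2 hf).pow_eq_one (p := p)

theorem hc_SL (h : ¬ r ∣ Nat.card F) (n : ℕ) : Hc (Matrix.SpecialLinearGroup (Fin (n + 1)) F)
    (r ^ padicValNat r (Nat.card F ^ orderOf (Nat.card F : ZMod r) - 1))
      ((Finset.range n).filter fun i => orderOf (Nat.card F : ZMod r) ∣ i + 2).card := by
  by_cases hd : orderOf (Nat.card F : ZMod r) = 1
  · simpa [hd] using (hc_GL h n).map _ Low.CI.phi_injective
  have h1 := Nat.card_multiples (n + 1) (orderOf (Nat.card F : ZMod r))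
  rw [Finset.card_filter, Finset.sum_range_succ', ← Finset.card_filter, if_neg (mt Nat.dvd_one.1 hd),
    add_zero] at h1
  obtain ⟨φ, hφ⟩ := hc_GL h (n + 1)
  have h2 : ∀ x, (φ x).1.det = 1 := fun x => by
    have h3 : orderOf (Matrix.GeneralLinearGroup.det (φ x)) ∣ _ :=
      (orderOf_map_dvd (Matrix.GeneralLinearGroup.det.comp φ) x).trans (Monoid.order_dvd_exponent x)
    rw [Monoid.exponent_pi] at h3
    have h4 := orderOf_dvd_natCard (Matrix.GeneralLinearGroup.det (φ x))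
    rw [Nat.card_units] at h4
    have h5 : r.Coprime (Nat.card F - 1) := hr.out.coprime_iff_not_dvd.2 fun h' => hd (Nat.dvd_one.1
      ((dvd_pow_sub_one_iff_orderOf Finite.one_lt_card 1).1 (by rwa [pow_one])))
    exact congrArg Units.val (orderOf_eq_one_iff.1 (Nat.eq_one_of_dvd_coprimes (h5.pow_left _)
      (h3.trans (Finset.lcm_dvd fun _ _ => by rw [Monoid.exponent_multiplicative, ZMod.exponent])) h4))
  rw [h1]
  exact ⟨{ toFun := fun x => ⟨_, h2 x⟩, map_one' := Subtype.ext (by simp),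
           map_mul' := fun _ _ => Subtype.ext (congrArg Units.val (φ.map_mul _ _)) }, fun _ _ h => hφ (Units.ext (congrArg Subtype.val h))⟩

theorem hc_Sp (h2 : r ≠ 2) (h : ¬ r ∣ Nat.card F) (n : ℕ) : Hc (Matrix.symplecticGroup (Fin n) F)
    (r ^ padicValNat r (Nat.card F ^ orderOf (Nat.card F : ZMod r) - 1))
      ((Finset.range n).filter fun i => orderOf (Nat.card F : ZMod r) ∣ 2 * (i + 1)).card := by
  obtain ⟨ζ, h1, h0, h3⟩ := exists_zeta h
  obtain ⟨p, _⟩ := CharP.exists F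
  have hp := Fact.mk (CharP.char_is_prime F p)
  have hζ : ζ ^ 2 ≠ 1 := sq_ne_one_of_dvd (hr.out.two_le.lt_of_ne' h2) h0
  have h4 : ((Finset.range n).filter fun i => orderOf (Nat.card F : ZMod r) ∣ 2 * (i + 1)).card ≤
      n / eta (qz F) ζ := by
    rw [← Nat.card_multiples]
    refine Finset.card_le_card (Finset.monotone_filter_right _ fun i _ hi => ?_)
    rw [← h3, per_dvd_iff', mul_comm, pow_mul, sq, mul_self_sub_one] at hi
    rw [eta_dvd_iff']
    rw [h1, Nat.cast_pow] at hi ⊢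
    have hr' := Nat.prime_iff_prime_int.1 hr.out
    by_cases h5 : (r : ℤ) ∣ qz F ^ (i + 1) + 1
    · refine .inr (hr'.pow_dvd_of_dvd_mul_right _ (fun h6 => h2 ?_) hi)
      have := h5.sub h6
      rw [add_sub_sub_cancel] at this
      exact (Nat.prime_dvd_prime_iff_eq hr.out Nat.prime_two).1 (Int.natCast_dvd_natCast.1 this)
    · exact .inl (hr'.pow_dvd_of_dvd_mul_left _ h5 hi)
  refine Hc.blocks (P := fun n => Matrix.symplecticGroup (Fin n) F) sp_block (d := eta (qz F) ζ) ?_ _ _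
    ((Nat.mul_le_mul_right _ h4).trans (Nat.div_mul_le_self _ _))
  obtain ⟨g, hg⟩ := (SpR.of_ne (A := {(ζ, 1)}) (by simp) (by simpa)).exists_sp (n := eta (qz F) ζ)
    (by rw [bdim_of_ne (by simpa)]; simp)
  refine Hc.one (g := g) ?_
  rw [← h1, orderOf_eq_iff_forall]
  intro k
  rw [Subtype.ext_iff, ← Matrix.toLin'.injective.eq_iff]
  simpa [orderOf_dvd_iff_pow_eq_one, Matrix.toLin'_pow, Module.End.one_eq_id] using
    hg.pow_eq_one (p := p) (k := k)

end Cfsg.Agent.Classical.HC
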