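import Cfsg.Agent.Elu.LinCase
import Cfsg.Agent.Classical.DetQuot
import Cfsg.Agent.Classical.PowPoly

/-! Classes of elements of prime order `r` in `G ⧸ Z(G)` for linear and unitary `G` when the scalars
have order divisible by `r`: `card_orb` (translation orbits on multisets), `card_classes_quot`
(abstract count), `elemDiv_diagonal`, `card_classes_mat` (matrix groups). -/

set_option autoImplicit false

namespace Cfsg.Agent.Classical.PCl

open MulAction

instance instSymAct {M : Type*} [Group M] {n : ℕ} : MulAction M (Sym M n) where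
  smul c D := D.map (c * ·)
  one_smul D := by change D.map _ = D; simp
  mul_smul a b D := by change D.map _ = (D.map _).map _; simp [Sym.map_map, mul_assoc]

theorem coe_smul {M : Type*} [Group M] {n : ℕ} (c : M) (D : Sym M n) :
    (c • D : Sym M n).1 = D.1.map (c * ·) := rfl

theorem card_orb {M : Type*} [Group M] [Finite M] {r : ℕ} (hr : r.Prime) (hM : Nat.card M = r) (n : ℕ) :
    Nat.card (orbitRel.Quotient M (Sym M n)) * r =
      (n + r - 1).choose (r - 1) + (r - 1) * if r ∣ n then 1 else 0 := by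
  classical
  have := Fintype.ofFinite M
  have := Fact.mk hr
  have h0 := hr.two_le
  have h1 := sum_card_fixedBy_eq_card_orbits_mul_card_group M (Sym M n)
  rw [Nat.card_eq_fintype_card] at hM
  have h2 : ∀ a : M, a ≠ 1 → Fintype.card (fixedBy (Sym M n) a) = if r ∣ n then 1 else 0 := fun a ha => by
    have h3 : ∀ D ∈ fixedBy (Sym M n) a, D.1 = D.1.count 1 • Finset.univ.val := fun D hD => by
      ext c
      have h4 : c ∈ stabilizer M D := (Subgroup.zpowers_le.2 hD) (mem_zpowers_of_prime_card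
        (Nat.card_eq_fintype_card.trans hM) ha)
      have := Multiset.count_map_eq_count' (c * ·) D.1 (mul_right_injective c) 1
      rw [← coe_smul, h4, mul_one] at this
      rw [this]
      simp
    have h4 : ∀ D ∈ fixedBy (Sym M n) a, n = D.1.count 1 * r := fun D hD => by
      simpa [D.2, hM] using congrArg Multiset.card (h3 D hD)
    split_ifs with h
    · obtain ⟨k, rfl⟩ := h
      refine Fintype.card_eq_one_iff.2 ⟨⟨⟨k • Finset.univ.val, by simp [hM, mul_comm]⟩, Subtype.ext ?_⟩,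
        fun D => Subtype.ext (Subtype.ext ?_)⟩
      · exact (Multiset.map_nsmul _ _ _).trans (congrArg _ (Multiset.map_univ_val_equiv (Equiv.mulLeft a)))
      · exact (h3 D.1 D.2).trans (congrArg (· • _)
          (Nat.eq_of_mul_eq_mul_left hr.pos ((h4 D.1 D.2).trans (mul_comm _ _))).symm)
    · exact Fintype.card_eq_zero_iff.2 ⟨fun D => h ⟨_, (h4 D.1 D.2).trans (mul_comm _ _)⟩⟩
  rw [Nat.card_eq_fintype_card, ← hM, ← h1, ← Finset.add_sum_erase _ _ (Finset.mem_univ 1),
    Finset.sum_congr rfl fun a ha => h2 a (Finset.ne_of_mem_erase ha), Finset.sum_const,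
    Finset.card_erase_of_mem (Finset.mem_univ _), Finset.card_univ, hM, smul_eq_mul]
  congr 1
  rw [Fintype.card_congr (Equiv.setCongr (fixedBy_one_eq_univ _ _)), Fintype.card_setUniv,
    Sym.card_sym_eq_choose, hM, add_comm r, Nat.choose_symm_of_eq_add (b := r - 1) (by omega)]

theorem card_classes_quot {G C : Type*} [Group G] [Finite G] [CommGroup C] [Finite C] [IsCyclic C]
    (s : C →* G) (hs : Function.Injective s) (hZ : s.range = Subgroup.center G) {r n : ℕ} (hr : r.Prime)
    (hn : 0 < n) (hd : r ∣ Nat.card C) (dg : (Fin n → (powMonoidHom r : C →* C).ker) → G)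
    (h1 : ∀ v, dg v ^ r = 1) (h2 : ∀ (c : (powMonoidHom r : C →* C).ker) v, s c * dg v = dg (c * v ·))
    (h3 : ∀ v w, IsConj (dg v) (dg w) ↔ Finset.univ.val.map v = Finset.univ.val.map w)
    (h4 : ∀ x, x ^ r = 1 → ∃ v, IsConj (dg v) x)
    (h5 : ∀ c, (∀ a, a ^ r ≠ c) → (r ∣ n ↔ ∃ x, x ^ r = s c) ∧ ∀ x y, x ^ r = s c → y ^ r = s c → IsConj x y) :
    Nat.card {D : ConjClasses (G ⧸ Subgroup.center G) // ∃ g, ConjClasses.mk g = D ∧ orderOf g = r} =
      ((n + r - 1).choose (r - 1) - r - if r ∣ n then 1 else 0) / r + r * if r ∣ n then 1 else 0 := by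
  have hc : ∀ c x, x * s c = s c * x := fun c => Subgroup.mem_center_iff.1 (hZ.le ⟨c, rfl⟩)
  have hp : ∀ c x, (s c * x) ^ r = s (c ^ r) * x ^ r := fun c x => by
    rw [map_pow, Commute.mul_pow (hc c x).symm]
  have hm : ∀ c x, ((s c * x : G) : G ⧸ Subgroup.center G) = x := fun c x => by
    rw [QuotientGroup.mk_mul, (QuotientGroup.eq_one_iff _).2 (hZ.le ⟨c, rfl⟩), one_mul]
  have hq : ∀ {x y : G}, IsConj (x : G ⧸ Subgroup.center G) y → ∃ c, IsConj (s c * x) y := fun {x y} h => by
    obtain ⟨g, hg⟩ := isConj_iff.1 h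
    obtain ⟨g, rfl⟩ := QuotientGroup.mk_surjective g
    obtain ⟨c, e⟩ := hZ.ge (QuotientGroup.eq.1 hg)
    exact ⟨c, isConj_iff.2 ⟨g, by rw [← mul_assoc, hc, mul_assoc, mul_assoc, ← hc, e]; group⟩⟩
  have he : ∀ {x y : G} {a b c}, IsConj (s c * x) y → x ^ r = s a → y ^ r = s b → c ^ r * a = b :=
    fun {x y a b c} h ha hb => by
      obtain ⟨g, hg⟩ := isConj_iff.1 (h.pow r)
      rw [hp, ha, hb, ← map_mul, hc, mul_inv_cancel_right] at hg
      exact hs hg
  choose v hv using fun D : Sym (powMonoidHom r : C →* C).ker n => show ∃ v : Fin n → _,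
      Finset.univ.val.map v = D.1 by
    obtain ⟨D, rfl⟩ := D
    induction D using Quotient.inductionOn
    exact ⟨List.get _, (Fin.univ_val_map _).trans (congrArg _ (List.ofFn_get _))⟩
  have h6 : ∀ t : {t : C ⧸ (powMonoidHom r : C →* C).range // t ≠ 1 ∧ r ∣ n}, ∀ a, a ^ r ≠ t.1.out :=
    fun t a h => t.2.1 (t.1.out_eq.symm.trans ((QuotientGroup.eq_one_iff _).2 ⟨a, h⟩))
  choose y hy using fun t : {t : C ⧸ (powMonoidHom r : C →* C).range // t ≠ 1 ∧ r ∣ n} =>
    (h5 _ (h6 t)).1.1 t.2.2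
  have h7 := card_orb hr ((IsCyclic.card_powMonoidHom_ker C r).trans (Nat.gcd_eq_right hd)) n
  have h8 : Nat.card {t : C ⧸ (powMonoidHom r : C →* C).range // t ≠ 1 ∧ r ∣ n} =
      (r - 1) * if r ∣ n then 1 else 0 := by
    have := (IsCyclic.index_powMonoidHom_range C r).trans (Nat.gcd_eq_right hd)
    split_ifs with h
    · rw [mul_one]
      conv_rhs => rw [← this]
      classical
      have := Fintype.ofFinite (C ⧸ (powMonoidHom r : C →* C).range)
      simp [h, Subgroup.index]
    · simp [h]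
  rw [card_classes_prime hr, card_classes_eq (G := G ⧸ Subgroup.center G) (α := orbitRel.Quotient (powMonoidHom r : C →* C).ker
    (Sym (powMonoidHom r : C →* C).ker n) ⊕ {t : C ⧸ (powMonoidHom r : C →* C).range // t ≠ 1 ∧ r ∣ n}) (· ^ r = 1)
      (Sum.elim (fun o => (dg (v o.out) : G)) fun t => (y t : G)), Nat.card_sum, h8]
  · have h9 := hr.two_le
    generalize Nat.card (orbitRel.Quotient (powMonoidHom r : C →* C).ker
      (Sym (powMonoidHom r : C →* C).ker n)) = O at h7
    split_ifs at h7 ⊢ with h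
    · have h10 := Nat.choose_le_choose n (show n + 1 ≤ n + r - 1 by omega)
      rw [Nat.choose_succ_self_right, Nat.choose_symm_of_eq_add (b := r - 1) (by omega)] at h10
      have h11 := Nat.le_of_dvd hn h
      obtain ⟨O, rfl⟩ : ∃ O', O = O' + 2 := ⟨O - 2, by
        have : 1 < O := lt_of_mul_lt_mul_right (a := r) (by omega) r.zero_le
        omega⟩
      rw [show (n + r - 1).choose (r - 1) - r - 1 = O * r by rw [add_mul] at h7; omega,
        Nat.mul_div_cancel _ hr.pos]
      omega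
    · simp only [mul_zero, add_zero, Nat.sub_zero] at h7 ⊢
      rw [← h7, ← Nat.sub_one_mul, Nat.mul_div_cancel _ hr.pos]
  · rintro (o | t)
    · exact (QuotientGroup.mk_pow _ _ _).symm.trans (congrArg _ (h1 _))
    · exact (QuotientGroup.mk_pow _ _ _).symm.trans ((QuotientGroup.eq_one_iff _).2 (hZ.le ⟨_, (hy t).symm⟩))
  · rintro (o | t) (o' | t') h <;> obtain ⟨c, h⟩ := hq h
    · have h9 := he h ((h1 _).trans s.map_one.symm) ((h1 _).trans s.map_one.symm)
      rw [h2 ⟨c, by simpa using h9⟩, h3, hv] at h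
      exact congrArg _ (Eq.symm (Quotient.out_equiv_out.1 ⟨⟨c, by simpa using h9⟩, Subtype.ext
        ((coe_smul _ _).trans (((congrArg (Multiset.map _) (hv _)).symm.trans (Multiset.map_map _ _ _)).trans h))⟩))
    · exact absurd (by simpa using he h ((h1 _).trans s.map_one.symm) (hy _)) (h6 t' c)
    · exact absurd (by simpa [inv_eq_iff_mul_eq_one] using he h (hy _) ((h1 _).trans s.map_one.symm))
        (h6 t c⁻¹)
    · refine congrArg _ (Subtype.ext (Quotient.out_equiv_out.1 (QuotientGroup.leftRel_apply.2 ⟨c, ?_⟩)))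
      simp [← he h (hy _) (hy _)]
  · intro g hg
    obtain ⟨x, rfl⟩ := QuotientGroup.mk_surjective g
    obtain ⟨c, hc'⟩ := hZ.ge ((QuotientGroup.eq_one_iff (x ^ r)).1 hg)
    by_cases h : ∃ a, a ^ r = c
    · obtain ⟨a, rfl⟩ := h
      obtain ⟨w, hw⟩ := h4 (s a⁻¹ * x) (by rw [hp, ← hc', ← map_mul]; simp)
      obtain ⟨b, hb⟩ := Quotient.mk_out (s := orbitRel (powMonoidHom r : C →* C).ker (Sym _ n))
        ⟨Finset.univ.val.map w, by simp⟩
      refine ⟨.inl ⟦⟨Finset.univ.val.map w, by simp⟩⟧, ?_⟩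
      have h9 := (h3 _ (b * w ·)).2 ((hv _).trans ((congrArg Subtype.val hb).symm.trans ((coe_smul _ _).trans 
        (Multiset.map_map (b * ·) w Finset.univ.val))))
      have h10 := ((QuotientGroup.mk' (Subgroup.center G)).map_isConj h9)
      have h11 := ((QuotientGroup.mk' (Subgroup.center G)).map_isConj hw)
      rw [← h2] at h10
      simp only [QuotientGroup.mk'_apply, hm] at h10 h11
      exact h10.trans h11
    · obtain ⟨⟨_, a, rfl⟩, ha⟩ := QuotientGroup.mk_out_eq_mul (powMonoidHom r : C →* C).range c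
      have h9 := h5 c (not_exists.1 h)
      refine ⟨.inr ⟨c, fun e => h ((QuotientGroup.eq_one_iff _).1 e), h9.1.2 ⟨x, hc'.symm⟩⟩, ?_⟩
      have h10 := (QuotientGroup.mk' (Subgroup.center G)).map_isConj (h9.2 (s a⁻¹ *
        y ⟨c, fun e => h ((QuotientGroup.eq_one_iff _).1 e), h9.1.2 ⟨x, hc'.symm⟩⟩) x
        (by rw [hp, hy, ha, ← map_mul]; simp) hc'.symm)
      simp only [QuotientGroup.mk'_apply, hm] at h10
      exact h10

open Matrix Polynomial Cfsg.Agent.Elu

variable {F : Type*} [Field F] [Finite F] {ι : Type*} [Fintype ι] [DecidableEq ι]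

theorem elemDiv_diagonal (v : ι → F) :
    elemDiv (toLin' (diagonal v)) = Finset.univ.val.map fun i => X - C (v i) := by
  classical
  refine elemDiv_eq_of (Multiset.forall_mem_map_iff.2 fun i _ =>
    isPP_of_irreducible (irreducible_X_sub_C _) (monic_X_sub_C _)) fun p _ _ e => ?_
  have h1 := kd_toLin'_add_rank (diagonal v) (p ^ e)
  rw [show aeval (diagonal v) (p ^ e) = diagonal fun i => (p ^ e).eval (v i) from
    (aeval_algHom_apply (diagonalAlgHom (R := F)) v _).trans (congrArg diagonal (funext fun i => by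
      rw [aeval_pi_apply₂, coe_aeval_eq_eval])), rank_diagonal, Fintype.card_subtype_compl] at h1
  have h2 := Fintype.card_subtype_le fun i => (p ^ e).eval (v i) = 0
  rw [Multiset.map_map, show kd _ _ = Fintype.card {i // (p ^ e).eval (v i) = 0} by omega,
    Fintype.card_subtype, Finset.card_filter]
  simp only [Function.comp_def, gdeg_irreducible (irreducible_X_sub_C _), dvd_iff_isRoot, natDegree_X_sub_C]
  rfl

theorem card_classes_mat {G : Type*} [Group G] {n r : ℕ} (φ : G →* GL (Fin n) F) (hφ : Function.Injective φ)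
    (hc : ∀ a b, IsConj (φ a).1 (φ b).1 → IsConj a b) (A : Subgroup Fˣ)
    (hZ : ∀ g ∈ Subgroup.center G, ∃ c ∈ A, (φ g).1 = c.1 • 1)
    (hD : ∀ v : Fin n → A, ∃ g, (φ g).1 = diagonal fun i => (v i).1.1) (hr : r.Prime) (hn : 0 < n)
    (hd : r ∣ Nat.card A) (hp : ∀ c : A, (∃ a : F, a ^ r = c.1) → ∃ a : A, a ^ r = c)
    (hx : ∀ (c : A) (x : Matrix (Fin n) (Fin n) F), x ^ r = c.1.1 • 1 → (¬ ∃ a : F, a ^ r = c.1) →
      ∃ g, IsConj x (φ g).1) :
    Nat.card {D : ConjClasses (G ⧸ Subgroup.center G) // ∃ g, ConjClasses.mk g = D ∧ orderOf g = r} =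
      ((n + r - 1).choose (r - 1) - r - if r ∣ n then 1 else 0) / r + r * if r ∣ n then 1 else 0 := by
  have := Finite.of_injective _ hφ
  have := Fact.mk hr
  have : NeZero n := ⟨hn.ne'⟩
  have hi : ∀ {a b}, (φ a).1 = (φ b).1 → a = b := fun h => hφ (Units.ext h)
  choose dg hdg using hD
  have h0 : ∀ c : A, (φ (dg fun _ => c)).1 = c.1.1 • 1 := fun c => by rw [hdg, smul_one_eq_diagonal]
  let s : A →* G := MonoidHom.mk' (fun c => dg fun _ => c) fun a b => hi (by simp [h0, smul_smul, mul_comm])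
  have hs : ∀ c, (φ (s c)).1 = c.1.1 • 1 := h0
  have h1 : ∀ {x : Matrix (Fin n) (Fin n) F} {c : F}, x ^ r = c • 1 → toLin' x ^ r = c • 1 := fun h => by
    rw [← toLin'_pow, h, map_smul, toLin'_one]; rfl
  obtain ⟨z, hz⟩ := exists_prime_orderOf_dvd_card' r hd
  have hz' : IsPrimitiveRoot z.1.1 r := by
    rw [IsPrimitiveRoot.coe_units_iff, IsPrimitiveRoot.coe_submonoidClass_iff, ← hz]
    exact .orderOf z
  have h2 : ∀ a : F, a ^ r = 1 → ∃ c : (powMonoidHom r : A →* A).ker, c.1.1.1 = a := fun a ha => by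
    obtain ⟨i, -, rfl⟩ := hz'.eq_pow_of_pow_eq_one ha
    exact ⟨⟨z ^ i, by rw [MonoidHom.mem_ker, powMonoidHom_apply, ← pow_mul, mul_comm, pow_mul, ← hz,
      pow_orderOf_eq_one, one_pow]⟩, by simp⟩
  refine card_classes_quot s (fun a b h => ?_) (le_antisymm ?_ fun g hg => ?_) hr hn hd
    (fun v => dg fun i => v i) (fun v => hi ?_) (fun c v => hi ?_) (fun v w => ?_) (fun x hx => ?_)
    fun c h => ?_
  · have := congrFun (congrFun ((hs a).symm.trans ((congrArg (φ · |>.1) h).trans (hs b))) 0) 0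
    exact Subtype.ext (Units.ext (by simpa using this))
  · rintro _ ⟨c, rfl⟩
    exact Subgroup.mem_center_iff.2 fun g => hi (by simp [hs])
  · obtain ⟨c, h3, h4⟩ := hZ g hg
    exact ⟨⟨c, h3⟩, hi ((hs _).trans h4.symm)⟩
  · rw [map_pow, Units.val_pow_eq_pow_val, hdg, diagonal_pow, map_one, Units.val_one, ← diagonal_one]
    exact congrArg _ (funext fun i => by simpa using congrArg (·.1.1) (v i).2)
  · rw [map_mul, Units.val_mul, hs, hdg, hdg, smul_mul_assoc, one_mul, ← diagonal_smul]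
    rfl
  · refine ⟨fun h => ?_, fun h => hc _ _ ?_⟩
    · have := isConj_iff_elemDiv.1 (isConj_units_iff.1 (φ.map_isConj h))
      rw [hdg, hdg, elemDiv_diagonal, elemDiv_diagonal] at this
      refine Multiset.map_injective (f := fun c => (X - C c.1.1.1 : F[X])) (fun a b e => ?_)
        (by rwa [Multiset.map_map, Multiset.map_map])
      exact Subtype.ext (Subtype.ext (Units.ext (C_injective (sub_right_injective e))))
    · rw [hdg, hdg, isConj_iff_elemDiv, elemDiv_diagonal, elemDiv_diagonal]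
      simpa only [Multiset.map_map, Function.comp_def] using congrArg (Multiset.map fun c => (X - C c.1.1.1 : F[X])) h
  · have h3 : ∀ a ∈ elemDiv (toLin' (φ x).1), ∃ c : (powMonoidHom r : A →* A).ker, X - C c.1.1.1 = a :=
      fun a ha => by
        obtain ⟨h3, h4, h5⟩ := isFac_of_mem hz'.neZero'.out ((h1 (c := 1) (by
          rw [← Units.val_pow_eq_pow_val, ← map_pow, hx]; simp)).trans (one_smul _ _)) ha
        rw [X_pow_sub_one_eq_prod hr.pos hz'] at h5
        obtain ⟨b, h6, h7⟩ := (h3.prime.dvd_finsetProd_iff _).1 h5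
        obtain ⟨c, rfl⟩ := h2 b ((mem_nthRootsFinset hr.pos _).1 h6)
        exact ⟨c, (eq_of_monic_of_associated h4 (monic_X_sub_C _)
          (h3.associated_of_dvd (irreducible_X_sub_C _) h7)).symm⟩
    obtain ⟨E, hE⟩ := (@Multiset.canLift _ _ (fun c : (powMonoidHom r : A →* A).ker => (X - C c.1.1.1 : F[X]))
      (fun a => ∃ c : (powMonoidHom r : A →* A).ker, X - C c.1.1.1 = a) ⟨fun _ h => h⟩).prf _ h3
    have h4 := sum_natDegree_elemDiv_mat (φ x).1
    induction E using Quotient.inductionOn with | _ l => ?_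
    obtain rfl : l.length = n := by simpa [← hE, Function.comp_def] using h4
    refine ⟨l.get, hc _ _ ?_⟩
    rw [hdg, isConj_iff_elemDiv, elemDiv_diagonal, ← hE, Fin.univ_val_map]
    exact congrArg _ ((List.ofFn_comp' l.get fun c => (X - C c.1.1.1 : F[X])).trans (congrArg _ (List.ofFn_get l)))
  · have h3 : ¬ ∃ a : F, a ^ r = c.1 := fun h3 => (hp c h3).elim h
    have h4 : ∀ x, x ^ r = s c → ∃ k, k * r = n ∧ elemDiv (toLin' (φ x).1) = .replicate k (X ^ r - C c.1.1) :=
      fun x hx => by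
        simpa using ((cases_pow c.1.ne_zero (h1 (x := (φ x).1) (by
          rw [← hs, ← hx, map_pow, Units.val_pow_eq_pow_val]))).resolve_left
            fun ⟨w, hw, _⟩ => h3 ⟨w, hw⟩).2
    refine ⟨⟨fun ⟨k, hk⟩ => ?_, fun ⟨x, hx⟩ => (h4 x hx).elim fun k hk => ⟨k, by rw [← hk.1, mul_comm]⟩⟩,
      fun x y hx hy => hc _ _ ?_⟩
    · obtain ⟨f, hf, -⟩ := exists_exc (V := Fin n → F) h3 (k := k) (by simp [hk, mul_comm])
      obtain ⟨f, rfl⟩ := toLin'.surjective f
      replace hf : f ^ r = c.1.1 • 1 := toLin'.injective (by rw [toLin'_pow, hf, map_smul, toLin'_one]; rfl)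
      obtain ⟨g, hg⟩ := hx c f hf h3
      obtain ⟨u, hu⟩ := hg.pow r
      rw [hf, SemiconjBy, mul_smul_comm, mul_one, eq_comm, ← Units.eq_mul_inv_iff_mul_eq] at hu
      exact ⟨g, hi (by simp [hs, hu])⟩
    · obtain ⟨k, h5, h6⟩ := h4 x hx
      obtain ⟨l, h7, h8⟩ := h4 y hy
      rw [isConj_iff_elemDiv, h6, h8, Nat.eq_of_mul_eq_mul_right hr.pos (h5.trans h7.symm)]

end Cfsg.Agent.Classical.PCl
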