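import Cfsg.Agent.AutCl.LangCl

/-! Matrices that a field automorphism multiplies by a scalar. -/

namespace Cfsg.Agent.Classical

open Cfsg.Agent.AutCl Matrix SemidirectProduct

variable {ι : Type} [Fintype ι] [DecidableEq ι] [Nonempty ι] {F F₀ : Type*} [Field F] [Field F₀]
  {f : F₀ →+* F} {τ : F ≃+* F}

omit [Nonempty ι] in
theorem coe_scal (c : Fˣ) : (scal c : GL ι F).1 = (c : F) • (1 : Matrix ι ι F) :=
  Matrix.ext_iff_mulVec.2 fun v => by simp [smul_mulVec]

theorem map_eq_smul_iff [Finite F] (hf : IsFix f τ) {g : GL ι F} :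
    (∃ c : F, c ≠ 0 ∧ g.1.map τ = c • g.1) ↔ ∃ d h, g = scal d * GeneralLinearGroup.map f h := by
  constructor
  · rintro ⟨c, hc, h⟩
    have h1 : glField τ g = scal (Units.mk0 c hc) * g := Units.ext (by
      rw [glField_coe, h, Units.val_mul, coe_scal]; simp)
    refine hf.exists_of_comm (c := (Units.mk0 c hc)⁻¹) (SemidirectProduct.ext ?_ (by simp))
    simp [h1, scal_inv]
  · rintro ⟨d, h, rfl⟩
    refine ⟨τ d / d, by simp, ?_⟩
    ext i j
    simp only [Units.val_mul, coe_scal, smul_mul, Matrix.one_mul, map_apply, Matrix.smul_apply, smul_eq_mul,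
      map_mul]
    rw [show (GeneralLinearGroup.map f h).1 i j = f (h.1 i j) from rfl, hf.apply]
    field_simp

theorem card_scal_map (A : Subgroup Fˣ) (H : Subgroup (GL ι F₀))
    (hA : ∀ c : F₀ˣ, Units.map (f : F₀ →* F) c ∈ A → scal c ∈ H) :
    Nat.card {g : GL ι F // ∃ d ∈ A, ∃ h ∈ H, g = scal d * GeneralLinearGroup.map f h} *
      Nat.card (A.comap (Units.map (f : F₀ →* F))) = Nat.card A * Nat.card H := by
  let φ : A × H →* GL ι F :=
    { toFun := fun p => scal p.1 * GeneralLinearGroup.map f p.2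
      map_one' := by simp [scal_one]
      map_mul' := fun a b => by
        simp only [Prod.fst_mul, Subgroup.coe_mul, scal_mul, Prod.snd_mul, map_mul, mul_assoc]
        rw [← mul_assoc (scal b.1.1), scal_comm b.1.1, mul_assoc] }
  rw [← Nat.card_prod A, ← φ.ker.index_mul_card, Subgroup.index_ker]
  congr 1
  · exact Nat.card_congr (Equiv.subtypeEquivRight fun g =>
      ⟨fun ⟨d, hd, h, hh, e⟩ => ⟨(⟨d, hd⟩, ⟨h, hh⟩), e.symm⟩,
        fun ⟨p, e⟩ => ⟨_, p.1.2, _, p.2.2, e.symm⟩⟩)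
  · refine Nat.card_congr (Equiv.ofBijective (fun c => ⟨(⟨_, c.2⟩, ⟨_, hA c.1⁻¹ (c⁻¹).2⟩), ?_⟩)
      ⟨fun a b h => ?_, fun p => ?_⟩)
    · change scal _ * GeneralLinearGroup.map f (scal _) = 1
      rw [map_scal, ← scal_mul, ← map_mul, mul_inv_cancel, map_one, scal_one]
    · exact Subtype.ext (inv_injective (scal_inj (congrArg (·.1.2.1) h)))
    · have h1 : GeneralLinearGroup.map f p.1.2.1 = scal p.1.1.1⁻¹ := by
        rw [scal_inv]; exact eq_inv_of_mul_eq_one_right p.2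
      obtain ⟨d, hd⟩ := exists_scal_of_map h1
      rw [hd, map_scal] at h1
      have h2 : Units.map (f : F₀ →* F) d⁻¹ = p.1.1.1 := by rw [map_inv, scal_inj h1, inv_inv]
      exact ⟨⟨d⁻¹, show Units.map _ _ ∈ A from h2 ▸ p.1.1.2⟩,
        Subtype.ext (Prod.ext (Subtype.ext h2) (Subtype.ext (by simp [hd])))⟩

theorem cast_gu_prod {q : ℕ} (hq : 1 ≤ q) (n : ℕ) :
    ((∏ i ∈ Finset.range n, (if Even i then q ^ (i + 1) + 1 else q ^ (i + 1) - 1) : ℕ) : ℤ) =
      ∏ i : Fin n, ((q : ℤ) ^ ((i : ℕ) + 1) - (-1) ^ ((i : ℕ) + 1)) := by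
  rw [Nat.cast_prod, Fin.prod_univ_eq_prod_range fun i => (q : ℤ) ^ (i + 1) - (-1) ^ (i + 1)]
  refine Finset.prod_congr rfl fun i _ => ?_
  rcases i.even_or_odd with h | h
  · simp [h, h.add_one.neg_one_pow]
  · simp [Nat.not_even_iff_odd.2 h, h.add_one.neg_one_pow, Nat.one_le_pow _ _ hq]

end Cfsg.Agent.Classical
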