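import Mathlib

/-! Abstract Shintani descent: elementary identities, and a fibre counting lemma. -/

namespace Cfsg.Agent.Classical

theorem card_rel_fib {α β γ : Type*} (P : α → Prop) (R : α → β → Prop)
    (h1 : ∀ a b, R a b → P a) (h2 : ∀ a, P a → Nonempty ({b // R a b} ≃ γ)) :
    Nat.card {p : α × β // R p.1 p.2} = Nat.card {a // P a} * Nat.card γ := by
  rw [← Nat.card_prod]
  refine Nat.card_congr ?_
  let e : ∀ a : {a // P a}, {b // R a.1 b} ≃ γ := fun a => (h2 a.1 a.2).some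
  exact
    { toFun := fun p => (⟨p.1.1, h1 _ _ p.2⟩, e ⟨p.1.1, h1 _ _ p.2⟩ ⟨p.1.2, p.2⟩)
      invFun := fun p => ⟨(p.1.1, ((e p.1).symm p.2).1), ((e p.1).symm p.2).2⟩
      left_inv := fun p => by simp
      right_inv := fun p => by simp }

variable {X : Type*} [Group X]

theorem mem_fixLocus (σ : MulAut X) (x : X) :
    x ∈ (MulEquiv.toMonoidHom σ).eqLocus (MonoidHom.id X) ↔ σ x = x := Iff.rfl

theorem aut_pow_fix {σ : MulAut X} {x : X} (h : σ x = x) (e : ℕ) : (σ ^ e) x = x := by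
  induction e with
  | zero => rfl
  | succ e ih => rw [pow_succ, MulAut.mul_apply, h, ih]

theorem aut_pow_comm (σ : MulAut X) (e : ℕ) (x : X) : σ ((σ ^ e) x) = (σ ^ e) (σ x) := by
  rw [← MulAut.mul_apply, ← MulAut.mul_apply, ← pow_succ, ← pow_succ']

theorem shin_prod (σ : MulAut X) (a : X) (d : ℕ) :
    ((List.range d).map (fun i => (σ ^ i) (a * (σ a)⁻¹))).prod = a * ((σ ^ d) a)⁻¹ := by
  induction d with
  | zero => simp
  | succ d ih =>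
    rw [List.range_succ, List.map_append, List.prod_append, ih]
    simp [pow_succ, mul_assoc]

theorem shin_fix_iff (σ : MulAut X) (e : ℕ) (a : X) :
    (σ ^ e) (a * (σ a)⁻¹) = a * (σ a)⁻¹ ↔ σ (((σ ^ e) a)⁻¹ * a) = ((σ ^ e) a)⁻¹ * a := by
  rw [map_mul, map_mul, map_inv, map_inv, aut_pow_comm]
  constructor
  · intro h
    calc ((σ ^ e) (σ a))⁻¹ * σ a = ((σ ^ e) a)⁻¹ * ((σ ^ e) a * ((σ ^ e) (σ a))⁻¹) * σ a := by group
      _ = _ := by rw [h]; group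
  · intro h
    calc (σ ^ e) a * ((σ ^ e) (σ a))⁻¹ = (σ ^ e) a * (((σ ^ e) (σ a))⁻¹ * σ a) * (σ a)⁻¹ := by group
      _ = _ := by rw [h]; group

/-- `b⁻¹ c` is fixed iff the Lang images agree. -/
theorem lang_eq_iff (σ : MulAut X) (b c : X) :
    b * (σ b)⁻¹ = c * (σ c)⁻¹ ↔ σ (b⁻¹ * c) = b⁻¹ * c := by
  rw [map_mul, map_inv]
  constructor
  · intro h
    calc (σ b)⁻¹ * σ c = b⁻¹ * (b * (σ b)⁻¹) * σ c := by group
      _ = _ := by rw [h]; group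
  · intro h
    calc b * (σ b)⁻¹ = b * ((σ b)⁻¹ * σ c) * (σ c)⁻¹ := by group
      _ = _ := by rw [h]; group

theorem lang_eq_iff' (σ : MulAut X) (b c : X) :
    (σ b)⁻¹ * b = (σ c)⁻¹ * c ↔ σ (c * b⁻¹) = c * b⁻¹ := by
  rw [map_mul, map_inv]
  constructor
  · intro h
    calc σ c * (σ b)⁻¹ = σ c * ((σ b)⁻¹ * b) * b⁻¹ := by group
      _ = _ := by rw [h]; group
  · intro h
    calc (σ b)⁻¹ * b = (σ c)⁻¹ * (σ c * (σ b)⁻¹) * b := by group
      _ = _ := by rw [h]; group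

/-- The key equivalence: with `h = b⁻¹ k a`. -/
theorem shin_key (σ : MulAut X) (e : ℕ) (a b k : X) :
    ((σ ^ e) k = k ∧ b * (σ b)⁻¹ = k * (a * (σ a)⁻¹) * (σ k)⁻¹) ↔
      (σ (b⁻¹ * k * a) = b⁻¹ * k * a ∧
        ((σ ^ e) b)⁻¹ * b = (b⁻¹ * k * a) * (((σ ^ e) a)⁻¹ * a) * (b⁻¹ * k * a)⁻¹) := by
  have e1 : k * (a * (σ a)⁻¹) * (σ k)⁻¹ = (k * a) * (σ (k * a))⁻¹ := by
    rw [map_mul]; group
  rw [e1, lang_eq_iff, ← mul_assoc b⁻¹ k a, and_comm]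
  refine and_congr_right fun h => ?_
  have h' := aut_pow_fix h e
  rw [map_mul, map_mul, map_inv] at h'
  constructor
  · intro hk
    rw [hk] at h'
    calc ((σ ^ e) b)⁻¹ * b = (((σ ^ e) b)⁻¹ * k * (σ ^ e) a) * (((σ ^ e) a)⁻¹ * a) *
          (b⁻¹ * k * a)⁻¹ := by group
      _ = _ := by rw [h']
  · intro hb
    calc (σ ^ e) k = b * (((σ ^ e) b)⁻¹ * b)⁻¹ * (((σ ^ e) b)⁻¹ * (σ ^ e) k * (σ ^ e) a) *
          ((σ ^ e) a)⁻¹ := by group
      _ = _ := by rw [h', hb]; group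

theorem shin_pow (σ : MulAut X) (e : ℕ) (a : X)
    (h : σ (((σ ^ e) a)⁻¹ * a) = ((σ ^ e) a)⁻¹ * a) (d : ℕ) :
    (((σ ^ e) ^ d) a)⁻¹ * a = (((σ ^ e) a)⁻¹ * a) ^ d := by
  induction d with
  | zero => simp
  | succ d ih =>
    have h1 : ((σ ^ e) ^ d) (((σ ^ e) a)⁻¹ * a) = ((σ ^ e) a)⁻¹ * a :=
      aut_pow_fix (aut_pow_fix h e) d
    rw [pow_succ' (((σ ^ e) a)⁻¹ * a), ← ih, pow_succ, MulAut.mul_apply]
    conv_rhs => rw [← h1]
    rw [map_mul, map_inv]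
    group

end Cfsg.Agent.Classical
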