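import Cfsg.Agent.Classical.SUss
import Cfsg.Agent.Classical.ScalFix

/-! Centralisers of unipotent elements of unitary groups: `card_herm_units` (the centraliser in `GL`
acts transitively on the self-adjoint commuting units), `card_fib` (fibres of a map compatible with
semilinear involutions), `card_cent_unip` (the order, for the Jordan matrix `jord`). -/

set_option autoImplicit false

namespace Cfsg.Agent.Classical.UCent

open Module Matrix Cfsg.Agent.Elu Cfsg.Agent.Geom Cfsg.Agent.Geom.Formed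

theorem card_fib_aux {M E : Type*} [AddCommGroup M] [Finite M] [AddCommGroup E] [Finite E] (π : M →+ E)
    (H : AddSubgroup M) (S : E → Prop) (hS : ∀ e, S e → ∃ a ∈ H, π a = e) :
    Nat.card {a // S (π a) ∧ a ∈ H} = Nat.card {e // S e} * Nat.card {a // π a = 0 ∧ a ∈ H} := by
  refine card_eq_mul_of_fiber (fun a : {a // S (π a) ∧ a ∈ H} => (⟨π a.1, a.2.1⟩ : {e // S e})) _ fun ⟨e, he⟩ => ?_
  obtain ⟨b, hb, rfl⟩ := hS e he
  exact Nat.card_congr ⟨fun a => ⟨a.1.1 - b, by rw [map_sub, sub_eq_zero]; exact congrArg Subtype.val a.2, H.sub_mem a.1.2.2 hb⟩,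
    fun a => ⟨⟨a.1 + b, by simpa [a.2.1] using he, H.add_mem a.2.2 hb⟩, by simp [a.2.1]⟩,
    fun _ => by simp, fun _ => by simp⟩

variable {K : Type*} [Field K] [Fintype K] {q : ℕ} (hK : Fintype.card K = q ^ 2)

theorem card_fib {M E : Type*} [AddCommGroup M] [Module K M] [Finite M] [AddCommGroup E] [Module K E]
    (τ : M →+ M) (τ' : E → E) (h1 : ∀ w, τ (τ w) = w) (h2 : ∀ (c : K) w, τ (c • w) = frobq hK c • τ w)
    (π : M →ₗ[K] E) (hπ : Function.Surjective π) (h : ∀ a, π (τ a) = τ' (π a)) :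
    ∃ k, 0 < k ∧ ∀ S : E → Prop, Nat.card {a // S (π a)} = Nat.card {e // S e} * k ^ 2 ∧
      Nat.card {a // S (π a) ∧ τ a = a} = Nat.card {e // S e ∧ τ' e = e} * k := by
  have := Finite.of_surjective _ hπ
  have := Fact.mk hK
  have h0 : τ' 0 = 0 := by simpa using (h 0).symm
  let H := (τ - AddMonoidHom.id M).ker
  have hH : ∀ a, a ∈ H ↔ τ a = a := fun a => sub_eq_zero
  refine ⟨Nat.card {a // π a = 0 ∧ a ∈ H}, (Nat.card_pos_iff.2 ⟨⟨⟨0, by simp⟩⟩, inferInstance⟩), fun S => ⟨?_, ?_⟩⟩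
  · have h3 := card_fib_aux π.toAddMonoidHom ⊤ S fun e _ => by simpa using hπ e
    have h4 := Eig.card_fix_semi hK (W := LinearMap.ker π) ((τ.comp (LinearMap.ker π).subtype.toAddMonoidHom).codRestrict
      _ fun a => by simpa [h, show π a = 0 from a.2] using h0) (fun _ => Subtype.ext (h1 _))
      fun _ _ => Subtype.ext (h2 _ _)
    simp only [AddSubgroup.mem_top, and_true] at h3
    refine h3.trans (congrArg _ (h4.symm.trans (congrArg (· ^ 2) (Nat.card_congr ?_))))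
    exact ⟨fun a => ⟨a.1.1, a.1.2, (hH _).2 (congrArg Subtype.val a.2)⟩,
      fun a => ⟨⟨a.1, a.2.1⟩, Subtype.ext ((hH _).1 a.2.2)⟩, fun _ => rfl, fun _ => rfl⟩
  · refine (Nat.card_congr (Equiv.subtypeEquivRight fun a => ?_)).trans
      (card_fib_aux π.toAddMonoidHom H (fun e => S e ∧ τ' e = e) fun e he => ?_)
    · exact ⟨fun ha => ⟨⟨ha.1, (h a).symm.trans (congrArg _ ha.2)⟩, (hH a).2 ha.2⟩,
        fun ha => ⟨ha.1.1, (hH a).1 ha.2⟩⟩
    · obtain ⟨a, rfl⟩ := hπ e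
      obtain ⟨t, ht⟩ := exists_trace_eq (F := K) (q := q) (one_pow q)
      refine ⟨t • a + τ (t • a), (hH _).2 (by rw [map_add, h1, add_comm]), ?_⟩
      simp [h2, h, he.2, ← add_smul, ht]

section T
variable {F : Type*} [Field F] [Finite F] {σ : F →+* F} {V : Type*} [AddCommGroup V] [Module F V]
  [FiniteDimensional F V] {Φ : Formed σ V}

omit [Finite F] in
theorem commute_adj (h : Φ.Nondeg) (x : Φ.isom) (g : End F V) (hg : Commute g x.1) :
    Commute (adj h g) x.1 := by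
  have := congrArg (adj h) hg.eq
  rw [adj_mul, adj_mul, adj_isom h x.2.1] at this
  ext v
  simpa using congrArg x.1 (LinearMap.congr_fun this (x.1 v))

theorem card_herm_units (hσ : σ ≠ RingHom.id F) (h : Φ.Nondeg) (hε : Φ.ε = 1) (x : Φ.isom) :
    Nat.card {g : End F V // Commute g x.1 ∧ IsUnit g} =
      Nat.card {g : End F V // (Commute g x.1 ∧ IsUnit g) ∧ adj h g = g} *
        Nat.card (Subgroup.centralizer {x}) := by
  have := Module.finite_of_finite F (M := V)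
  have := Module.finite_of_finite F (M := End F V)
  have h1 : ∀ g : End F V, IsUnit g → IsUnit (adj h g) := by
    rintro _ ⟨g, rfl⟩
    exact IsUnit.of_mul_eq_one (adj h g⁻¹.1) (by rw [← adj_mul, Units.inv_mul, adj_one])
  refine card_eq_mul_of_fiber (fun g : {g : End F V // Commute g x.1 ∧ IsUnit g} => (⟨adj h g.1 * g.1, ⟨(commute_adj h x _ g.2.1).mul_left g.2.1,
    (h1 _ g.2.2).mul g.2.2⟩, by rw [adj_mul, adj_adj]⟩ : {g : End F V // (Commute g x.1 ∧ IsUnit g) ∧
      adj h g = g})) _ fun ⟨b, ⟨b1, b2⟩, b3⟩ => ?_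
  let Ψ : Formed σ V := ofHerm hσ Φ.σσ (Φ.B.compl₂ b) ⟨fun u v => by
    change σ (Φ.B u (b v)) = Φ.B v (b u)
    rw [← B_adj h b v, b3, Φ.symm u, hε, one_mul]⟩
  have hΨ : Ψ.Nondeg := fun u hu => h u fun v => by
    obtain ⟨w, rfl⟩ := ((End.isUnit_iff b).1 b2).2 v
    exact hu w
  obtain ⟨c, c1, c2⟩ := exists_intertwine_isom hΨ h hε (x := x.1) (y := x.1) (fun u v => by
    change Φ.B _ (b _) = Φ.B _ (b _)
    rw [show b (x.1 v) = x.1 (b v) from LinearMap.congr_fun b1 v, x.2.1]) x.2.1 (.refl _ _)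
    (fun _ => rfl) (.inl hσ)
  replace c2 : ∀ u v, Φ.B (c u) (c v) = Φ.B u (b v) := c2
  symm
  refine Nat.card_eq_of_bijective (fun z => ⟨⟨(z.1.1 * c : V ≃ₗ[F] V), LinearMap.ext fun v => ?_,
    (End.isUnit_iff _).2 (z.1.1 * c).bijective⟩, Subtype.ext (LinearMap.ext fun v => h.ext_right fun u => ?_)⟩)
    ⟨fun z z' e => ?_, fun ⟨⟨g, g1, g2⟩, g3⟩ => ?_⟩
  · have := congrArg (·.1 (c v)) (Subgroup.mem_centralizer_singleton_iff.1 z.2)
    simpa [c1] using this
  · simpa [B_adj', z.1.2.1] using c2 u v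
  · exact Subtype.ext (Subtype.ext (mul_right_cancel (LinearEquiv.toLinearMap_injective
      (congrArg (·.1.1) e))))
  · refine ⟨⟨⟨LinearEquiv.ofBijective g ((End.isUnit_iff _).1 g2) * c⁻¹, fun u v => ?_, fun u => by
      rw [Q_eq_zero hσ, Q_eq_zero hσ]⟩, Subgroup.mem_centralizer_singleton_iff.2 (Subtype.ext
        (LinearEquiv.ext fun v => ?_))⟩, Subtype.ext (Subtype.ext (LinearMap.ext fun v => by simp))⟩
    · obtain ⟨u, rfl⟩ := c.surjective u
      obtain ⟨v, rfl⟩ := c.surjective v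
      have := congrArg (Φ.B u <| ·.1 v) g3
      simpa [c2, B_adj'] using this
    · obtain ⟨v, rfl⟩ := c.surjective v
      simpa [← c1] using LinearMap.congr_fun g1 v

omit [Finite F] [FiniteDimensional F V] in
theorem adj_loc {f : End F V} (h : Iso Φ f) {k : ℕ} {u : V} (hu : ((f - 1) ^ (k + 1)) u = 0) (v : V) :
    Φ.B (((f - 1) ^ k) u) v = (-1) ^ k * Φ.B u (((f - 1) ^ k) v) := by
  have h1 : f (((f - 1) ^ k) u) = ((f - 1) ^ k) u := by
    rwa [pow_succ', End.mul_apply, LinearMap.sub_apply, sub_eq_zero] at hu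
  rw [← h.adj_sub, ← (h.pow k).1 _ v, End.pow_apply f, Function.iterate_fixed h1]

omit [Finite F] in
theorem perp_ker {f : End F V} (hn : Φ.Nondeg) (h : Iso Φ f) (k : ℕ) :
    Φ.perp (LinearMap.ker ((f - 1) ^ k)) = LinearMap.range ((f - 1) ^ k) := by
  refine (Submodule.eq_of_le_of_finrank_eq ?_ ?_).symm
  · rintro _ ⟨t, rfl⟩ w hw
    simpa [show ((f - 1) ^ k) w = 0 from hw] using h.adj_sub k w t
  · rw [hn.finrank_perp]
    exact Nat.eq_sub_of_add_eq (LinearMap.finrank_range_add_finrank_ker _)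

end T

variable {κ : Type} [Fintype κ] [DecidableEq κ] {d : κ → ℕ} (hd : ∀ k, 0 < d k)

variable (K d) in
/-- the generators of the blocks of size `c` -/
def inc (c : ℕ) : ({k // d k = c} → K) →ₗ[K] ((k : κ) × Fin (d k) → K) where
  toFun v x := if h : d x.1 = c ∧ (x.2 : ℕ) = 0 then v ⟨x.1, h.1⟩ else 0
  map_add' u v := by ext x; by_cases h : d x.1 = c ∧ (x.2 : ℕ) = 0 <;> simp [h]
  map_smul' a v := by ext x; by_cases h : d x.1 = c ∧ (x.2 : ℕ) = 0 <;> simp [h]

variable (K) in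
/-- the coordinates at the generators of the blocks of size `c` -/
def prj (c : ℕ) : ((k : κ) × Fin (d k) → K) →ₗ[K] ({k // d k = c} → K) :=
  LinearMap.funLeft K K fun k => ⟨k.1, 0, hd k⟩

omit [Fintype K] in
theorem mem_ker_iff {s : ℕ} {v : (k : κ) × Fin (d k) → K} : ((toLin' (jord K d) - 1) ^ s) v = 0 ↔
    ∀ x : (k : κ) × Fin (d k), x.2 + s < d x.1 → v x = 0 := by
  rw [toLin'_sub_one_pow, toLin'_apply, jord_pow_mulVec_eq_zero, mem_coordP]

omit [Fintype K] in
theorem mem_range_iff {s : ℕ} {v : (k : κ) × Fin (d k) → K} :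
    ((toLin' (jord K d) - 1) ^ s) v ∈ LinearMap.range ((toLin' (jord K d) - 1) ^ (s + 1)) ↔
      ∀ k, s < d k → v ⟨k, 0, hd k⟩ = 0 := by
  simp only [toLin'_sub_one_pow, toLin'_apply, LinearMap.mem_range, funext_iff, jord_pow_mulVec]
  refine ⟨fun ⟨w, hw⟩ k hk => by simpa using (hw ⟨k, s, hk⟩).symm, fun h =>
    ⟨fun x => if h : x.2 + 1 < d x.1 then v ⟨x.1, x.2 + 1, h⟩ else 0, fun ⟨k, j, hj⟩ => ?_⟩⟩
  dsimp only
  split_ifs with h1 h2 h3 h3 h3
  · congr 3
    omega
  all_goals first | omega | rfl | skip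
  obtain rfl : j = s := by omega
  simpa using (h k hj).symm

omit [Fintype K] in
theorem inc_mem (s : ℕ) (v : {k // d k = s + 1} → K) :
    ((toLin' (jord K d) - 1) ^ (s + 1)) (inc K d (s + 1) v) = 0 :=
  mem_ker_iff.2 fun x hx => dif_neg (by omega)

omit [Fintype K] [Fintype κ] [DecidableEq κ] in
theorem prj_inc (c : ℕ) (v : {k // d k = c} → K) : prj K hd c (inc K d c v) = v :=
  funext fun k => dif_pos ⟨k.2, rfl⟩

omit [Fintype K] in
theorem B_prj {σ : K →+* K} {Φ : Formed σ ((k : κ) × Fin (d k) → K)} (hn : Φ.Nondeg)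
    (h : Iso Φ (toLin' (jord K d))) {s : ℕ} {y z : (k : κ) × Fin (d k) → K}
    (hy : ((toLin' (jord K d) - 1) ^ (s + 1)) y = 0) (hz : ((toLin' (jord K d) - 1) ^ (s + 1)) z = 0) :
    Φ.B z (((toLin' (jord K d) - 1) ^ s) (inc K d (s + 1) (prj K hd (s + 1) y))) =
      Φ.B z (((toLin' (jord K d) - 1) ^ s) y) ∧
    Φ.B (inc K d (s + 1) (prj K hd (s + 1) y)) (((toLin' (jord K d) - 1) ^ s) z) =
      Φ.B y (((toLin' (jord K d) - 1) ^ s) z) := by
  have h1 : Φ.B z (((toLin' (jord K d) - 1) ^ s) (inc K d (s + 1) (prj K hd (s + 1) y) - y)) = 0 := by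
    refine (perp_ker hn h _).ge ((mem_range_iff hd).2 fun k hk => sub_eq_zero.2 ?_) z hz
    by_cases h2 : d k = s + 1
    · exact dif_pos ⟨h2, rfl⟩
    · exact (dif_neg fun h3 => h2 h3.1).trans (mem_ker_iff.1 hy _ (by simp; omega)).symm
  refine ⟨by rwa [map_sub, map_sub, sub_eq_zero] at h1, ?_⟩
  have h2 := adj_loc h (show ((toLin' (jord K d) - 1) ^ (s + 1))
    (inc K d (s + 1) (prj K hd (s + 1) y) - y) = 0 by rw [map_sub, hy, inc_mem, sub_zero]) z
  rw [Φ.B_eq_zero_symm h1, eq_comm, mul_eq_zero, B_sub_left, sub_eq_zero] at h2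
  exact h2.resolve_left (by simp)

omit [Fintype K] [Fintype κ] in
theorem inc_single (c : ℕ) (k : {k // d k = c}) :
    inc K d c (Pi.single k 1) = Pi.single ⟨k.1, 0, hd k⟩ 1 := by
  ext x
  by_cases h : x = ⟨k.1, 0, hd k⟩
  · subst h
    exact (dif_pos ⟨k.2, rfl⟩).trans (by simp)
  · rw [Pi.single_eq_of_ne h]
    by_cases h' : d x.1 = c ∧ (x.2 : ℕ) = 0
    · exact (dif_pos h').trans (Pi.single_eq_of_ne
        (fun e => h (sigma_fin_eq_iff.2 ⟨congrArg Subtype.val e, h'.2⟩)) _)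
    · exact dif_neg h'

omit [Fintype K] in
theorem isUnit_iff_blocks {g : End K ((k : κ) × Fin (d k) → K)} (hg : Commute g (toLin' (jord K d))) :
    IsUnit g ↔ ∀ s, IsUnit (prj K hd (s + 1) ∘ₗ g ∘ₗ inc K d (s + 1) : End K _) := by
  obtain ⟨g, rfl⟩ := toLin'.surjective g
  have h1 : g * (jord K d - 1) = (jord K d - 1) * g := by
    have := hg.eq
    rw [End.mul_eq_comp, End.mul_eq_comp, ← toLin'_mul, ← toLin'_mul, toLin'.injective.eq_iff] at this
    simp [mul_sub, sub_mul, this]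
  have h2 : (g.submatrix (fun k => ⟨k, 0, hd k⟩) fun k => ⟨k, 0, hd k⟩ : Matrix κ κ K).BlockTriangular d :=
    fun l k h => jord_pow_mulVec_eq_zero.1 ((eq_jordG hd h1).2 k) ⟨l, 0, hd l⟩ (by simpa using h)
  have h3 : ∀ c, LinearMap.det (prj K hd c ∘ₗ toLin' g ∘ₗ inc K d c) = ((g.submatrix (fun k => ⟨k, 0, hd k⟩)
      fun k => ⟨k, 0, hd k⟩ : Matrix κ κ K).toSquareBlock d c).det := fun c => by
    rw [← LinearMap.det_toMatrix']
    congr 1
    ext i j
    simp [inc_single hd, prj, toSquareBlock_def]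
  simp only [LinearMap.isUnit_iff_isUnit_det, h3, isUnit_iff_ne_zero, LinearMap.det_toLin']
  rw [det_comm_ne_zero_iff hd h1, h2.det, Finset.prod_ne_zero_iff]
  refine ⟨fun h s => by_contra fun h4 => ?_, fun h c hc => ?_⟩
  · refine h4 (h _ (by_contra fun h5 => h4 ?_))
    have : IsEmpty {k // d k = s + 1} := ⟨fun k => h5 (Finset.mem_image.2 ⟨k.1, Finset.mem_univ _, k.2⟩)⟩
    simp
  · obtain ⟨k, -, rfl⟩ := Finset.mem_image.1 hc
    have := h (d k - 1)
    rwa [Nat.sub_add_cancel (hd k)] at this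

include hd in
theorem card_cent_unip {Φ : Formed (frobq hK) ((k : κ) × Fin (d k) → K)} (hn : Φ.Nondeg) (hε : Φ.ε = 1)
    (x : Φ.isom) (hx : (x.1 : End K _) = toLin' (jord K d)) {D : ℕ} (hD : ∀ k, d k ≤ D) :
    ∃ m, Nat.card {g : End K _ // Commute g (toLin' (jord K d)) ∧ IsUnit g} =
      (∏ s : Fin D, Nat.card {g : End K ({k // d k = s + 1} → K) // IsUnit g}) * m ^ 2 ∧
      Nat.card (Subgroup.centralizer {x}) = (∏ s : Fin D, Nat.card (GU (Fintype.card {k // d k = s + 1}) K q)) * m := by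
  have := Fact.mk hK
  have hI : Iso Φ (toLin' (jord K d)) := hx ▸ x.2
  obtain ⟨δ, δ0, δ1⟩ := exists_trace_zero K q
  let β : ∀ s, Formed (frobq hK) ({k // d k = s + 1} → K) := fun s => ofHerm (frobq_ne_id hK) Φ.σσ
    (δ ^ s • (Φ.B.comp (inc K d _)).compl₂ (((toLin' (jord K d) - 1) ^ s) ∘ₗ inc K d _)) ⟨fun u v => by
      change frobq hK (δ ^ s * Φ.B (inc K d _ u) (((toLin' (jord K d) - 1) ^ s) (inc K d _ v))) =
        δ ^ s * Φ.B (inc K d _ v) (((toLin' (jord K d) - 1) ^ s) (inc K d _ u))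
      rw [Φ.symm _ (inc K d _ v), adj_loc hI (inc_mem s u), hε, map_mul, map_mul, map_pow, map_pow,
        map_neg, map_one, frobq_apply hK δ, eq_neg_of_add_eq_zero_right δ1, neg_pow δ]
      ring⟩
  have hβ : ∀ s u v, (β s).B u v = δ ^ s * Φ.B (inc K d _ u) (((toLin' (jord K d) - 1) ^ s) (inc K d _ v)) :=
    fun _ _ _ => rfl
  have hn' : ∀ s, (β s).Nondeg := fun s u hu => by
    have := (mem_range_iff hd).1 ((perp_ker hn hI _).le (x := ((toLin' (jord K d) - 1) ^ s) (inc K d _ u))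
      fun z hz => by
        rw [← (B_prj hd hn hI hz (inc_mem s u)).2]
        simpa [hβ, δ0] using (β s).B_eq_zero_symm (hu (prj K hd _ z)))
    rw [← prj_inc hd _ u]
    exact funext fun k => this k.1 (by have := k.2; omega)
  let A := Subalgebra.centralizer K {toLin' (jord K d)}
  have hA : ∀ g, g ∈ A ↔ Commute g (toLin' (jord K d)) := fun g => by
    simp [A, Subalgebra.mem_centralizer_iff, commute_iff_eq, eq_comm]
  have hA' : ∀ (g : A) (s : ℕ) v, ((toLin' (jord K d) - 1) ^ s) (g.1 v) = g.1 (((toLin' (jord K d) - 1) ^ s) v) :=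
    fun g s v => LinearMap.congr_fun ((((hA g).1 g.2).sub_right (.one_right _)).pow_right s).eq.symm v
  have hA'' : ∀ (g : A) (s : ℕ) v, ((toLin' (jord K d) - 1) ^ (s + 1)) (g.1 (inc K d (s + 1) v)) = 0 :=
    fun g s v => by rw [hA', inc_mem, map_zero]
  have := Module.finite_of_finite K (M := End K ((k : κ) × Fin (d k) → K))
  have : ∀ s, Finite (End K ({k // d k = s + 1} → K)) := fun _ => Module.finite_of_finite K
  let τ : A →+ A := ((adj hn).comp A.val.toLinearMap.toAddMonoidHom).codRestrict _ fun g =>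
    (hA _).2 (hx ▸ commute_adj hn x g (hx ▸ (hA _).1 g.2))
  let π : A →ₗ[K] ∀ s : Fin D, End K ({k // d k = s + 1} → K) :=
    ⟨⟨fun g s => prj K hd _ ∘ₗ g.1 ∘ₗ inc K d _, fun _ _ => by ext; simp⟩, fun _ _ => by ext; simp⟩
  have hs : Function.Surjective π := fun e => by
    choose t ht using fun k => (⟨⟨d k - 1, by have := hD k; have := hd k; omega⟩,
      (Nat.sub_add_cancel (hd k)).symm⟩ : ∃ t : Fin D, d k = t + 1)
    have h1 := jordG_comm (v := fun k => inc K d _ (e (t k) (Pi.single ⟨k, ht k⟩ 1))) fun k => by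
      have := inc_mem (K := K) _ (e (t k) (Pi.single ⟨k, ht k⟩ 1))
      rw [toLin'_sub_one_pow] at this
      exact (congrArg ((jord K d - 1) ^ · *ᵥ _) (ht k)).trans this
    simp only [mul_sub, sub_mul, mul_one, one_mul, sub_left_inj] at h1
    refine ⟨⟨toLin' _, (hA _).2 ((toLin'_mul _ _).symm.trans ((congrArg toLin' h1).trans (toLin'_mul _ _)))⟩,
      funext fun s => (Pi.basisFun K _).ext fun k => ?_⟩
    obtain ⟨k, hk⟩ := k
    obtain rfl : s = t k := Fin.ext (by have := ht k; omega)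
    change prj K hd _ (jordG _ *ᵥ inc K d _ (Pi.basisFun K _ _)) = _
    rw [Pi.basisFun_apply, inc_single hd, mulVec_single_one, ← prj_inc hd _ (e _ _)]
    congr 1
    ext y
    simp [jordG]
  have hτ : ∀ g, π (τ g) = fun s : Fin D => adj (hn' s) (π g s) := fun g => funext fun s =>
    ((adj_eq_iff _).2 fun u v => by
      change δ ^ s.1 * Φ.B (inc K d _ (prj K hd _ (adj hn g.1 (inc K d _ u)))) _ =
        δ ^ s.1 * Φ.B _ (((toLin' (jord K d) - 1) ^ s.1) (inc K d _ (prj K hd _ (g.1 (inc K d _ v)))))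
      rw [(B_prj hd hn hI (hA'' g _ _) (inc_mem _ u)).1, hA', ← B_adj hn]
      exact congrArg _ (B_prj hd hn hI (hA'' (τ g) _ _) (inc_mem _ v)).2).symm
  obtain ⟨m, m0, hm⟩ := card_fib (M := A) hK τ (fun e (s : Fin D) => adj (hn' s) (e s))
    (fun g => Subtype.ext (adj_adj hn g.1)) (fun c g => Subtype.ext (adj_smul hn c g.1)) π hs hτ
  obtain ⟨h1, h2⟩ := hm fun e => ∀ s, IsUnit (e s)
  have h3 := card_herm_units (frobq_ne_id hK) hn hε x
  have h4 : ∀ g : A, (∀ s, IsUnit (π g s)) ↔ IsUnit g.1 := fun g => by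
    rw [isUnit_iff_blocks hd ((hA _).1 g.2)]
    refine ⟨fun h s => ?_, fun h s => h s⟩
    by_cases h5 : s < D
    · exact h ⟨s, h5⟩
    · have : IsEmpty {k // d k = s + 1} := ⟨fun k => by have := hD k; have := k.2; omega⟩
      exact isUnit_of_subsingleton _
  rw [Nat.card_congr (Equiv.subtypePiEquivPi (p := fun _ e => IsUnit e)), Nat.card_pi] at h1
  replace h1 := (Nat.card_congr ((Equiv.subtypeSubtypeEquivSubtypeInter _ IsUnit).symm.trans
    ((Equiv.subtypeEquivRight hA).symm.subtypeEquiv fun g => (h4 ⟨g.1, (hA _).2 g.2⟩).symm))).trans h1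
  refine ⟨m, h1, ?_⟩
  have h5 : ∀ s, Nat.card {g : End K ({k // d k = s + 1} → K) // IsUnit g} =
      Nat.card {g // IsUnit g ∧ adj (hn' s) g = g} * Nat.card (GU (Fintype.card {k // d k = s + 1}) K q) :=
    fun s => by
      have := card_herm_units (frobq_ne_id hK) (hn' s) rfl 1
      obtain ⟨e, he⟩ := exists_isIso_hermFormed hK (hn' s) rfl (finrank_fintype_fun_eq_card K)
      rw [Subgroup.centralizer_eq_top_iff_subset.2 (by simp), Subgroup.card_top, he.card_isom,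
        ← Nat.card_congr (guEquiv hK _).toEquiv] at this
      simpa [show ∀ g : End K ({k // d k = s + 1} → K), Commute g LinearMap.id from Commute.one_right] using this
  rw [Nat.card_congr ((Equiv.subtypeEquivRight fun e => by simp only [funext_iff, ← forall_and]).trans
    (Equiv.subtypePiEquivPi (p := fun (s : Fin D) e => IsUnit e ∧ adj (hn' s) e = e))), Nat.card_pi] at h2
  replace h2 := (Nat.card_congr (α := {g : End K _ // (Commute g (toLin' (jord K d)) ∧ IsUnit g) ∧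
    adj hn g = g}) ⟨fun g => ⟨⟨g.1, (hA _).2 g.2.1.1⟩, (h4 _).2 g.2.1.2, Subtype.ext g.2.2⟩,
      fun g => ⟨g.1.1, ⟨(hA _).1 g.1.2, (h4 _).1 g.2.1⟩, congrArg Subtype.val g.2.2⟩, fun _ => rfl,
      fun _ => rfl⟩).trans h2
  rw [hx, h1, h2, Finset.prod_congr rfl fun (s : Fin D) _ => h5 s, Finset.prod_mul_distrib, mul_assoc, mul_assoc,
    sq, mul_left_comm _ m] at h3
  exact (Nat.eq_of_mul_eq_mul_left m0 (Nat.eq_of_mul_eq_mul_left (Finset.prod_pos fun s _ =>
    Nat.card_pos_iff.2 ⟨⟨⟨1, isUnit_one, adj_one _⟩⟩, inferInstance⟩) h3)).symm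

end Cfsg.Agent.Classical.UCent
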